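import Cfsg.Agent.H1.J2Words
import Cfsg.Agent.H4.JT.Fast

/-!
# Elements of the double cover of the Hall-Janko group: certificates

Powers, orders and conjugations of the 21 words of `J2Lift`.
-/

set_option autoImplicit false
set_option maxRecDepth 100000

namespace Cfsg.Agent.H4.JT.CA

open Subgroup Cfsg.Spor Cfsg.Agent.J2.ZTau Cfsg.Agent.J2.Ico Cfsg.Agent.J2.Lattice Cfsg.Agent.J2.Refl
  Cfsg.Agent.J2.Group Cfsg.Agent.J2.Stab Cfsg.Agent.J2.SixGens
open Cfsg.Agent.H1.J2Lift Cfsg.Agent.H1.J2Words Cfsg.Agent.H4.JT.Fast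

/-- the letters -/
def D2 (k : ℕ) : List ℕ := match k with
  | 0 => [0]
  | 1 => [125]
  | 2 => [141, 125]
  | 3 => [125, 141]
  | 4 => [1, 24, 267, 277]
  | 5 => [0, 260, 296, 239]
  | 6 => [239, 296, 260, 0]
  | 7 => [1, 313, 109, 108]
  | 8 => [163]
  | _ => [314]

theorem d0 : chk (let2 0) (wq (D2 0)) = true := by decide +kernel
theorem d1 : chk (let2 1) (wq (D2 1)) = true := by decide +kernel
theorem d2 : chk (let2 2) (wq (D2 2)) = true := by decide +kernel
theorem d3 : chk (let2 3) (wq (D2 3)) = true := by decide +kernel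
theorem d4 : chk (let2 4) (wq (D2 4)) = true := by decide +kernel
theorem d5 : chk (let2 5) (wq (D2 5)) = true := by decide +kernel
theorem d6 : chk (let2 6) (wq (D2 6)) = true := by decide +kernel
theorem d7 : chk (let2 7) (wq (D2 7)) = true := by decide +kernel
theorem d8 : chk (let2 8) (wq (D2 8)) = true := by decide +kernel
theorem d9 : chk (let2 9) (wq (D2 9)) = true := by decide +kernel

theorem let2_eq (k : ℕ) : wd (let2 k) = Wd (D2 k) := by
  match k with
  | 0 => exact wd_eq d0
  | 1 => exact wd_eq d1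
  | 2 => exact wd_eq d2
  | 3 => exact wd_eq d3
  | 4 => exact wd_eq d4
  | 5 => exact wd_eq d5
  | 6 => exact wd_eq d6
  | 7 => exact wd_eq d7
  | 8 => exact wd_eq d8
  | (n + 9) => exact wd_eq d9

/-- words in the letters -/
def F2 (L : List ℕ) : List ℕ := L.flatMap D2

theorem C2_eq (L : List ℕ) : wd (C2 L) = Wd (F2 L) := by
  induction L with
  | nil => exact wd_nil.trans Wd_nil.symm
  | cons k L ih =>
    have h1 : C2 (k :: L) = let2 k ++ C2 L := rfl
    have h2 : F2 (k :: L) = D2 k ++ F2 L := rfl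
    rw [h1, h2, wd_append, Wd_append, ih, let2_eq]

/-- powers of a word -/
def pwr : ℕ → List ℕ → List ℕ
  | 0, _ => []
  | n + 1, L => L ++ pwr n L

theorem Wd_pwr (n : ℕ) (L : List ℕ) : Wd (pwr n L) = Wd L ^ n := by
  induction n with
  | zero => rw [pow_zero]; exact Wd_nil
  | succ n ih =>
    have : pwr (n + 1) L = L ++ pwr n L := rfl
    rw [this, Wd_append, ih, pow_succ']

/-- check that a word is not trivial -/
def nchk (L : List ℕ) : Bool :=
  okL L && !(decide (run (wq L) e1 = e1 ∧ run (wq L) e2 = e2 ∧ run (wq L) e3 = e3))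

theorem Wd_ne {L : List ℕ} (h : nchk L = true) : Wd L ≠ 1 := by
  intro h1
  unfold nchk at h
  rw [Bool.and_eq_true, Bool.not_eq_true', decide_eq_false_iff_not] at h
  apply h.2
  have h2 : ∀ v : Lam, run (wq L) v = v := by
    intro v
    rw [← wd_apply (rootsB_wq h.1)]
    change (((Wd L : W) : Equiv.Perm Lam) v : Vec) = v
    rw [h1]
    rfl
  exact ⟨h2 (pt root_e1), h2 (pt root_e2), h2 (pt root_e3)⟩

/-- short words for the representatives of the classes -/
def ww (j : ℕ) : List ℕ := match j with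
  | 1 => [0]
  | 2 => [11, 68, 55, 79]
  | 3 => [0, 163]
  | 4 => [125, 162]
  | 5 => [2, 263, 273]
  | 6 => [0, 120, 125, 218]
  | 7 => [0, 136]
  | 8 => [1, 20, 109, 267]
  | 9 => [120, 125, 218]
  | 10 => [1, 157, 23, 41]
  | 11 => [4, 32, 53, 102]
  | 12 => [1, 21, 80, 243]
  | 13 => [4, 178, 13, 277]
  | 14 => [91, 12, 40]
  | 15 => [25, 55, 185]
  | 16 => [0, 152, 39, 56]
  | 17 => [3, 109, 46, 80]
  | 18 => [5, 50, 7, 101]
  | 19 => [4, 13, 92, 129]
  | 20 => [1, 123, 54, 139]
  | _ => []

theorem okw : allB (fun j => fchk (F2 (sw j)) (ww j)) 21 = true := by decide +kernel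

theorem word_eq {j : ℕ} (hj : j < 21) : wd (C2 (sw j)) = Wd (ww j) := by
  rw [C2_eq]
  exact Wd_eq (allB_iff okw hj)

/-- the exponents -/
def ex (j : ℕ) : ℕ := match j with
  | 0 => 1
  | 1 => 2
  | 2 => 4
  | 3 => 5
  | 4 => 3
  | 6 => 3
  | 7 => 5
  | 9 => 6
  | 11 => 12
  | 13 => 15
  | 14 => 4
  | 15 => 10
  | 16 => 15
  | 17 => 10
  | 18 => 7
  | 19 => 10
  | 20 => 10
  | _ => 0

theorem o0 : fchk (pwr 1 (ww 0)) [] = true := by decide +kernel
theorem o1 : fchk (pwr 2 (ww 1)) [] = true := by decide +kernel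
theorem o2 : fchk (pwr 4 (ww 2)) [] = true := by decide +kernel
theorem o3 : fchk (pwr 5 (ww 3)) [] = true := by decide +kernel
theorem o4 : fchk (pwr 3 (ww 4)) [] = true := by decide +kernel
theorem o6 : fchk (pwr 3 (ww 6)) [] = true := by decide +kernel
theorem o7 : fchk (pwr 5 (ww 7)) [] = true := by decide +kernel
theorem o9 : fchk (pwr 6 (ww 9)) [] = true := by decide +kernel
theorem o11 : fchk (pwr 12 (ww 11)) [] = true := by decide +kernel
theorem o13 : fchk (pwr 15 (ww 13)) [] = true := by decide +kernel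
theorem o14 : fchk (pwr 4 (ww 14)) [] = true := by decide +kernel
theorem o15 : fchk (pwr 10 (ww 15)) [] = true := by decide +kernel
theorem o16 : fchk (pwr 15 (ww 16)) [] = true := by decide +kernel
theorem o17 : fchk (pwr 10 (ww 17)) [] = true := by decide +kernel
theorem o18 : fchk (pwr 7 (ww 18)) [] = true := by decide +kernel
theorem o19 : fchk (pwr 10 (ww 19)) [] = true := by decide +kernel
theorem o20 : fchk (pwr 10 (ww 20)) [] = true := by decide +kernel
theorem e3_5 : fchk (pwr 1 (ww 3)) [0, 163] = true := by decide +kernel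
theorem n3_5 : nchk [0, 163] = true := by decide +kernel
theorem e4_3 : fchk (pwr 1 (ww 4)) [125, 162] = true := by decide +kernel
theorem n4_3 : nchk [125, 162] = true := by decide +kernel
theorem e6_3 : fchk (pwr 1 (ww 6)) [0, 120, 125, 218] = true := by decide +kernel
theorem n6_3 : nchk [0, 120, 125, 218] = true := by decide +kernel
theorem e7_5 : fchk (pwr 1 (ww 7)) [0, 136] = true := by decide +kernel
theorem n7_5 : nchk [0, 136] = true := by decide +kernel
theorem e9_3 : fchk (pwr 2 (ww 9)) [0, 120, 128, 226] = true := by decide +kernel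
theorem n9_3 : nchk [0, 120, 128, 226] = true := by decide +kernel
theorem e11_3 : fchk (pwr 4 (ww 11)) [25, 35, 134, 279] = true := by decide +kernel
theorem n11_3 : nchk [25, 35, 134, 279] = true := by decide +kernel
theorem e13_3 : fchk (pwr 5 (ww 13)) [0, 120, 128, 226] = true := by decide +kernel
theorem n13_3 : nchk [0, 120, 128, 226] = true := by decide +kernel
theorem e13_5 : fchk (pwr 3 (ww 13)) [0, 182] = true := by decide +kernel
theorem n13_5 : nchk [0, 182] = true := by decide +kernel
theorem e15_5 : fchk (pwr 2 (ww 15)) [25, 148, 55, 118] = true := by decide +kernel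
theorem n15_5 : nchk [25, 148, 55, 118] = true := by decide +kernel
theorem e16_3 : fchk (pwr 5 (ww 16)) [0, 120, 128, 226] = true := by decide +kernel
theorem n16_3 : nchk [0, 120, 128, 226] = true := by decide +kernel
theorem e16_5 : fchk (pwr 3 (ww 16)) [0, 162] = true := by decide +kernel
theorem n16_5 : nchk [0, 162] = true := by decide +kernel
theorem e17_5 : fchk (pwr 2 (ww 17)) [47, 182, 0, 85] = true := by decide +kernel
theorem n17_5 : nchk [47, 182, 0, 85] = true := by decide +kernel
theorem e18_7 : fchk (pwr 1 (ww 18)) [5, 50, 7, 101] = true := by decide +kernel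
theorem n18_7 : nchk [5, 50, 7, 101] = true := by decide +kernel
theorem e19_5 : fchk (pwr 2 (ww 19)) [47, 182, 0, 85] = true := by decide +kernel
theorem n19_5 : nchk [47, 182, 0, 85] = true := by decide +kernel
theorem e20_5 : fchk (pwr 2 (ww 20)) [0, 74, 16, 132] = true := by decide +kernel
theorem n20_5 : nchk [0, 74, 16, 132] = true := by decide +kernel
/-- conjugating word -/
def c18 : List ℕ := [8, 9, 17, 273]
/-- conjugating word -/
def c11 : List ℕ := [118, 4, 139]
/-- conjugating word -/
def cz : List ℕ := [1, 24, 268, 270]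
/-- a quaternion commuting with `ww 3` -/
def qa : List ℕ := [1, 26, 66, 110]
/-- a quaternion commuting with `ww 3` -/
def qb : List ℕ := [1, 26, 64, 104]

theorem k13 : fchk ([0] ++ ww 13) (pwr 4 (ww 13) ++ [0]) = true := by decide +kernel
theorem k16 : fchk ([0] ++ ww 16) (pwr 4 (ww 16) ++ [0]) = true := by decide +kernel
theorem k18 : fchk (c18 ++ ww 18) (pwr 3 (ww 18) ++ c18) = true := by decide +kernel
theorem k11 : fchk (c11 ++ ww 11) (pwr 5 (ww 11) ++ c11) = true := by decide +kernel
theorem k8 : fchkN (cz ++ ww 8) (ww 8 ++ cz) = true := by decide +kernel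
theorem k10 : fchkN (cz ++ ww 10) (ww 10 ++ cz) = true := by decide +kernel
theorem k12 : fchkN (cz ++ ww 12) (ww 12 ++ cz) = true := by decide +kernel
theorem kqa : fchk (qa ++ ww 3) (ww 3 ++ qa) = true := by decide +kernel
theorem kqb : fchk (qb ++ ww 3) (ww 3 ++ qb) = true := by decide +kernel
theorem kab : fchkN (qa ++ qb) (qb ++ qa) = true := by decide +kernel

end Cfsg.Agent.H4.JT.CA
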