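import Cfsg.Agent.H4.JT.Frame
import Cfsg.Agent.H4.JT.CertA
import Cfsg.Agent.H4.JT.Words

/-!
# The frame of reflections in the double cover of the Hall-Janko group
-/

set_option autoImplicit false
set_option maxRecDepth 100000

namespace Cfsg.Agent.H4.JT.FC

open Subgroup Cfsg.Spor Cfsg.Agent.J2.ZTau Cfsg.Agent.J2.Ico Cfsg.Agent.J2.Lattice Cfsg.Agent.J2.Refl
  Cfsg.Agent.J2.Group Cfsg.Agent.J2.Stab Cfsg.Agent.J2.SixGens
open Cfsg.Agent.H1.J2Lift Cfsg.Agent.H4.JT.Fast Cfsg.Agent.H4.JT.CA Cfsg.Agent.H4.JT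

/-- a word -/
def zl : List ℕ := [0]
/-- a word -/
def sl : List ℕ := [265]
/-- a word -/
def vl : List ℕ := [6, 176, 22, 114]
/-- a word -/
def xl : List ℕ := [0, 120, 128, 226]
/-- a word -/
def wl : List ℕ := [1, 12, 29, 311]
/-- a word -/
def hl' : List ℕ := [1, 25, 12, 185]
/-- a word -/
def gl : List ℕ := [0, 47, 85, 162]
/-- a word -/
def gl' : List ℕ := [0, 74, 16, 132]
/-- a word -/
def yl : List ℕ := [11, 68, 55, 79]
/-- a word -/
def yl' : List ℕ := [1, 24, 268, 270]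
/-- the reflections -/
def Tl : Fin 5 → List ℕ := ![[313], [24], [2], [23], [312]]

theorem WN {L M : List ℕ} (h : fchkN L M = true) : Wd L = ng * Wd M := Wd_eqN h

theorem ng1 : Wd (vl ++ vl) = ng := by
  have h : Wd (vl ++ vl) = ng * Wd [] := WN (by decide +kernel)
  rw [h, Wd_nil, mul_one]

theorem l1 : fchk (D2 8) ([23] ++ sl ++ hl' ++ sl ++ hl' ++ sl ++ hl' ++ sl ++ hl' ++ sl ++ [23]) = true := by
  decide +kernel
theorem l2 : fchkN (D2 9) ([313] ++ zl) = true := by decide +kernel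
theorem l3 : fchkN (D2 7) (hl' ++ sl ++ [24] ++ [2] ++ sl ++ hl' ++ [23] ++ [313]) = true := by decide +kernel
theorem l4 : fchkN (D2 4) (sl ++ [24] ++ [312] ++ sl ++ [2] ++ [24]) = true := by decide +kernel

/-- the generators -/
def gset : Set W := {ng, Wd zl, Wd sl, Wd hl', Wd xl} ∪ Set.range (fun i => Wd (Tl i))

theorem gen_top : Subgroup.closure gset = ⊤ := by
  set S := Subgroup.closure gset with hS
  have cN : ng ∈ S := Subgroup.subset_closure (Or.inl (by simp))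
  have cz : Wd zl ∈ S := Subgroup.subset_closure (Or.inl (by simp))
  have cs : Wd sl ∈ S := Subgroup.subset_closure (Or.inl (by simp))
  have ch : Wd hl' ∈ S := Subgroup.subset_closure (Or.inl (by simp))
  have cT : ∀ i, Wd (Tl i) ∈ S := fun i => Subgroup.subset_closure (Or.inr ⟨i, rfl⟩)
  have c0 : Wd [313] ∈ S := cT 0
  have c1 : Wd [24] ∈ S := cT 1
  have c2 : Wd [2] ∈ S := cT 2
  have c3 : Wd [23] ∈ S := cT 3
  have c4 : Wd [312] ∈ S := cT 4
  have m0 : wd (letr 0) ∈ S := by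
    have : wd (letr 0) = Wd zl := let2_eq 0
    rw [this]; exact cz
  have m1 : wd (letr 1) ∈ S := by
    have : wd (letr 1) = Wd (D2 8) := let2_eq 8
    rw [this, Wd_eq l1]
    simp only [Wd_append]
    exact S.mul_mem (S.mul_mem (S.mul_mem (S.mul_mem (S.mul_mem (S.mul_mem (S.mul_mem (S.mul_mem (S.mul_mem
      (S.mul_mem c3 cs) ch) cs) ch) cs) ch) cs) ch) cs) c3
  have m2 : wd (letr 2) ∈ S := by
    have : wd (letr 2) = Wd (D2 9) := let2_eq 9
    rw [this, WN l2]
    simp only [Wd_append]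
    exact S.mul_mem cN (S.mul_mem c0 cz)
  have m3 : wd (letr 3) ∈ S := by
    have : wd (letr 3) = Wd (D2 7) := let2_eq 7
    rw [this, WN l3]
    simp only [Wd_append]
    exact S.mul_mem cN (S.mul_mem (S.mul_mem (S.mul_mem (S.mul_mem (S.mul_mem (S.mul_mem (S.mul_mem ch cs) c1) c2) cs)
      ch) c3) c0)
  have m4 : wd (letr 4) ∈ S := by
    have : wd (letr 4) = Wd (D2 4) := let2_eq 4
    rw [this, WN l4]
    simp only [Wd_append]
    exact S.mul_mem cN (S.mul_mem (S.mul_mem (S.mul_mem (S.mul_mem (S.mul_mem cs c1) c4) cs) c2) c1)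
  have hm : ((S.map pr).comap psi.toMonoidHom) = ⊤ := by
    apply Words.gen_eq
    intro k hk
    rw [Subgroup.mem_comap]
    have h1 : psi.toMonoidHom (Cfsg.Agent.J2.HundredGens.gw [k]) = J (letr k) := psi_letr k
    rw [h1]
    refine ⟨wd (letr k), ?_, rfl⟩
    interval_cases k
    · exact m0
    · exact m1
    · exact m2
    · exact m3
    · exact m4
  rw [eq_top_iff]
  intro a _
  obtain ⟨b, hb⟩ := psi.surjective (pr a)
  have h1 : b ∈ (S.map pr).comap psi.toMonoidHom := by rw [hm]; trivial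
  rw [Subgroup.mem_comap] at h1
  obtain ⟨c, hc, hcb⟩ := h1
  have h2 : pr (c⁻¹ * a) = 1 := by
    rw [map_mul, map_inv, hcb, ← hb]
    exact inv_mul_cancel _
  have h3 : a = c * (c⁻¹ * a) := by group
  rw [h3]
  refine S.mul_mem hc ?_
  rcases mem_center (pr_eq_one.1 h2) with h | h
  · rw [h]; exact S.one_mem
  · rw [h]; exact cN

theorem a1 : fchk (zl ++ zl) [] = true := by decide +kernel
theorem a2 : ∀ i, fchk (Tl i ++ Tl i) [] = true := by decide +kernel
theorem a3 : ∀ i, fchk (zl ++ Tl i) (Tl i ++ zl) = true := by decide +kernel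
theorem a4 : ∀ i j, i ≠ j → fchkN (Tl i ++ Tl j) (zl ++ (Tl j ++ Tl i)) = true := by decide +kernel
theorem a5 : fchkN (Tl 0 ++ Tl 1 ++ Tl 2 ++ Tl 3 ++ Tl 4) zl = true := by decide +kernel
theorem a6 : fchk (sl ++ sl) [] = true := by decide +kernel
theorem a7 : fchk (sl ++ zl) (Tl 0 ++ sl) = true := by decide +kernel
theorem a8 : fchk (sl ++ xl) (xl ++ sl) = true := by decide +kernel
theorem a9 : fchk (vl ++ zl) (zl ++ vl) = true := by decide +kernel
theorem a10 : ∀ i, fchk (vl ++ Tl i) (Tl (![1, 0, 3, 2, 4] i) ++ vl) = true := by decide +kernel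
theorem a11 : fchk (xl ++ zl) (zl ++ xl) = true := by decide +kernel
theorem a12 : ∀ i, fchk (xl ++ Tl i) (Tl (![0, 2, 3, 1, 4] i) ++ xl) = true := by decide +kernel
theorem a13 : fchk (xl ++ xl ++ xl) [] = true := by decide +kernel
theorem a14 : fchk (vl ++ xl ++ vl ++ xl) (xl ++ xl ++ vl) = true := by decide +kernel
theorem a15 : fchk (wl ++ gl) (gl ++ vl) = true := by decide +kernel
theorem a16 : fchk (gl ++ zl) (zl ++ gl) = true := by decide +kernel
theorem a17 : ∀ i, fchk (gl ++ Tl i) (Tl (![4, 0, 1, 2, 3] i) ++ gl) = true := by decide +kernel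
theorem a18 : fchkN (xl ++ xl) (wl ++ xl ++ wl) = true := by decide +kernel
theorem a19 : fchk (hl' ++ gl') (gl' ++ vl) = true := by decide +kernel
theorem a20 : fchk (gl' ++ zl) (zl ++ gl') = true := by decide +kernel
theorem a21 : ∀ i, fchk (gl' ++ Tl i) (Tl (![2, 4, 1, 0, 3] i) ++ gl') = true := by decide +kernel
theorem a22 : fchk (Tl 1 ++ Tl 2) (xl ++ (xl ++ ((sl ++ hl' ++ sl) ++ (xl ++ ((sl ++ hl' ++ sl) ++ (xl ++ (xl ++
    ((sl ++ hl' ++ sl) ++ (xl ++ (sl ++ Tl 1 ++ sl ++ (sl ++ Tl 3 ++ sl))))))))))) = true := by decide +kernel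
theorem a23 : fchk (Tl 1 ++ Tl 3) (xl ++ ((sl ++ hl' ++ sl) ++ (xl ++ (xl ++ ((sl ++ hl' ++ sl) ++ (xl ++
    ((sl ++ hl' ++ sl) ++ (xl ++ ((sl ++ hl' ++ sl) ++ (sl ++ Tl 4 ++ sl ++ (sl ++ Tl 1 ++ sl))))))))))) = true := by
  decide +kernel
theorem a24 : fchk (Tl 1 ++ sl ++ Tl 1) (sl ++ Tl 1 ++ sl) = true := by decide +kernel
theorem a25 : fchk (yl ++ zl) (zl ++ yl) = true := by decide +kernel
theorem a26 : ∀ i, fchk (yl ++ Tl i) (Tl (![0, 4, 3, 2, 1] i) ++ yl) = true := by decide +kernel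
theorem a27 : fchk (yl' ++ zl) (zl ++ yl') = true := by decide +kernel
theorem a28 : ∀ i, fchk (yl' ++ Tl i) (Tl (![0, 3, 4, 1, 2] i) ++ yl') = true := by decide +kernel

/-- **the frame** -/
theorem fd : FD (G := W) ng (Wd zl) (Wd sl) (Wd vl) (Wd xl) (Wd wl) (Wd hl') (Wd gl) (Wd gl') (Wd yl) (Wd yl')
    (fun i => Wd (Tl i)) where
  nn := ng_sq
  nc := ng_comm
  zz := by rw [← Wd_append, ← Wd_nil]; exact Wd_eq a1
  TT i := by rw [← Wd_append, ← Wd_nil]; exact Wd_eq (a2 i)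
  zT i := by rw [← Wd_append, ← Wd_append]; exact Wd_eq (a3 i)
  anti i j h := by simp only [← Wd_append]; exact WN (a4 i j h)
  prod := by simp only [← Wd_append]; exact WN a5
  ss := by rw [← Wd_append, ← Wd_nil]; exact Wd_eq a6
  sz := by rw [← Wd_append, ← Wd_append]; exact Wd_eq a7
  sx := by rw [← Wd_append, ← Wd_append]; exact Wd_eq a8
  vz := by rw [← Wd_append, ← Wd_append]; exact Wd_eq a9
  vT i := by rw [← Wd_append, ← Wd_append]; exact Wd_eq (a10 i)
  vv := by rw [← Wd_append]; exact ng1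
  xz := by rw [← Wd_append, ← Wd_append]; exact Wd_eq a11
  xT i := by rw [← Wd_append, ← Wd_append]; exact Wd_eq (a12 i)
  x3 := by rw [← Wd_append, ← Wd_append, ← Wd_nil]; exact Wd_eq a13
  vx := by simp only [← Wd_append]; exact Wd_eq a14
  wg := by rw [← Wd_append, ← Wd_append]; exact Wd_eq a15
  gz := by rw [← Wd_append, ← Wd_append]; exact Wd_eq a16
  gT i := by rw [← Wd_append, ← Wd_append]; exact Wd_eq (a17 i)
  xw := by simp only [← Wd_append]; exact WN a18
  hg := by rw [← Wd_append, ← Wd_append]; exact Wd_eq a19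
  gz' := by rw [← Wd_append, ← Wd_append]; exact Wd_eq a20
  gT' i := by rw [← Wd_append, ← Wd_append]; exact Wd_eq (a21 i)
  t12 := by simp only [← Wd_append]; exact Wd_eq a22
  t13 := by simp only [← Wd_append]; exact Wd_eq a23
  ts := by simp only [← Wd_append]; exact Wd_eq a24
  yz := by rw [← Wd_append, ← Wd_append]; exact Wd_eq a25
  yT i := by rw [← Wd_append, ← Wd_append]; exact Wd_eq (a26 i)
  yz' := by rw [← Wd_append, ← Wd_append]; exact Wd_eq a27
  yT' i := by rw [← Wd_append, ← Wd_append]; exact Wd_eq (a28 i)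
  gen := gen_top

end Cfsg.Agent.H4.JT.FC
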