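import Cfsg.Agent.H4.JT.Frame

/-!
# Frames: the faithful case

`FD.minus` : degree at most 12 implies degree 6.
-/

set_option autoImplicit false

namespace Cfsg.Agent.H4.JT

open Module H1.EightA

variable {K : Type*} [Field K] {V : Type*} [AddCommGroup V] [Module K V]

/-- a common eigenvector -/
theorem common_eig [IsAlgClosed K] [FiniteDimensional K V] [Nontrivial V] (A B : End K V) (h : A * B = B * A) :
    ∃ u : V, u ≠ 0 ∧ ∃ a b : K, A u = a • u ∧ B u = b • u := by
  obtain ⟨a, ha⟩ := End.exists_eigenvalue A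
  have hinv : ∀ u ∈ A.eigenspace a, B u ∈ A.eigenspace a := by
    intro u hu
    rw [End.mem_eigenspace_iff] at hu ⊢
    have : A (B u) = B (A u) := DFunLike.congr_fun h u
    rw [this, hu, map_smul]
  have : Nontrivial (A.eigenspace a) := Submodule.nontrivial_iff_ne_bot.2 ha
  obtain ⟨b, hb⟩ := End.exists_eigenvalue (B.restrict hinv)
  obtain ⟨u, hu⟩ := hb.exists_hasEigenvector
  refine ⟨u, fun h0 => hu.2 (Subtype.ext h0), a, b, End.mem_eigenspace_iff.1 u.2, ?_⟩
  exact congrArg Subtype.val (End.mem_eigenspace_iff.1 hu.1)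

variable {G : Type*} [Group G] {ng z s v x w h g g' y1 y2 : G} {T : Fin 5 → G} [FiniteDimensional K V]

/-- **the faithful case** -/
theorem FD.minus [IsAlgClosed K] (D : FD ng z s v x w h g g' y1 y2 T) (ρ : G →* End K V) (h2 : (2 : K) ≠ 0)
    (hng : ρ ng = -1) (hfix : ∀ i u, ρ z u = -u → ρ (T i) u = u) (hn : finrank K V ≤ 12) (hpos : 0 < finrank K V)
    (hirr : ∀ X : Submodule K V, (∀ a, ∀ u ∈ X, ρ a u ∈ X) → X = ⊥ ∨ X = ⊤) : finrank K V = 6 := by
  obtain ⟨d1, hle, d2⟩ := D.dims ρ h2 hng hfix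
  have hU : finrank K (Ei (ρ z) false) ≤ 8 := by omega
  have hU4 : 4 ≤ finrank K (Ei (ρ z) false) := by
    rw [← finrank_top K (Ei (ρ z) false)]
    refine four_le_inv h2 (D.ac ρ hng) ?_ (fun _ _ _ => trivial)
    intro h0
    have h1 : finrank K (Ei (ρ z) false) = 0 := by
      rw [← finrank_top K (Ei (ρ z) false), h0, finrank_bot]
    omega
  have hq := D.quad ρ h2 hng hfix hU
  -- elementary relations
  have zs : z * s = s * T 0 := by
    calc z * s = s * (s * z) * s := by rw [← mul_assoc, D.ss, one_mul]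
      _ = s * T 0 * (s * s) := by rw [D.sz]; group
      _ = s * T 0 := by rw [D.ss, mul_one]
  have Ts : T 0 * s = s * z := D.sz.symm
  have sT : s * T 0 = z * s := zs.symm
  have ss : ∀ u, ρ s (ρ s u) = u := fun u => by rw [← rho_mul, D.ss, map_one]; rfl
  have TT : ∀ i u, ρ (T i) (ρ (T i) u) = u := fun i u => by rw [← rho_mul, D.TT, map_one]; rfl
  set L : Submodule K V := Ei (ρ (T 0)) true with hL
  have mL : ∀ {u}, u ∈ L ↔ ρ (T 0) u = -u := fun {u} => mEt
  have zL : ∀ u ∈ L, ρ z u = u := fun u hu => mEf.1 (hle hu)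
  have sL : ∀ u ∈ L, ρ z (ρ s u) = -(ρ s u) := by
    intro u hu
    rw [← rho_mul, zs, rho_mul, mL.1 hu, map_neg]
  have tsL : ∀ i, ∀ u ∈ L, ρ (T i) (ρ s u) = ρ s u := fun i u hu => hfix i _ (sL u hu)
  have rL : ∀ i, ∀ u ∈ L, ρ (s * T i * s) u = u := by
    intro i u hu
    rw [rho_mul, rho_mul, tsL i u hu, ss]
  have rL' : ∀ i, ∀ u ∈ L, ρ s (ρ (T i) (ρ s u)) = u := by
    intro i u hu
    rw [tsL i u hu, ss]
  -- the operators `H`, `X`
  set H : End K V := ρ (s * h * s) with hH
  set X : End K V := ρ x with hX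
  have HH : ∀ u, H (H u) = -u := by
    intro u
    rw [hH, ← rho_mul]
    have : s * h * s * (s * h * s) = ng := by
      calc s * h * s * (s * h * s) = s * h * (s * s) * h * s := by group
        _ = s * (h * h) * s := by rw [D.ss]; group
        _ = ng := by rw [D.hh, D.nc, mul_assoc, D.ss, mul_one]
    rw [this, hng]; rfl
  have HL : ∀ u ∈ L, H u ∈ L := by
    intro u hu
    rw [mL] at hu ⊢
    rw [hH, ← rho_mul]
    have : T 0 * (s * h * s) = s * h * s * T 0 := by
      calc T 0 * (s * h * s) = (T 0 * s) * h * s := by group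
        _ = s * (h * z) * s := by rw [Ts, D.hz]; group
        _ = s * h * (z * s) := by group
        _ = s * h * s * T 0 := by rw [zs]; group
    rw [this, rho_mul, hu, map_neg]
  have XL : ∀ u ∈ L, X u ∈ L := by
    intro u hu
    rw [mL] at hu ⊢
    rw [hX, ← rho_mul]
    have : T 0 * x = x * T 0 := (D.xT 0).symm
    rw [this, rho_mul, hu, map_neg]
  set Q : End K V := H * X + X * H + H with hQ
  have hQu : ∀ u, Q u = H (X u) + X (H u) + H u := fun u => rfl
  have QL : ∀ u ∈ L, Q u ∈ L := fun u hu =>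
    L.add_mem (L.add_mem (HL _ (XL _ hu)) (XL _ (HL _ hu))) (HL _ hu)
  have HQ : ∀ u, H (Q u) = Q (H u) := by
    intro u
    rw [hQu, hQu, map_add, map_add, HH, HH, map_neg]
    abel
  have hLpos : Nontrivial L := by
    rw [← Module.finrank_pos_iff (R := K)]
    omega
  obtain ⟨l, hl0, c, t, hHl, hQl⟩ := common_eig (H.restrict HL) (Q.restrict QL) (by
    apply LinearMap.ext
    intro u
    apply Subtype.ext
    exact HQ u)
  have hHl' : H (l : V) = c • (l : V) := congrArg Subtype.val hHl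
  have hQl' : Q (l : V) = t • (l : V) := congrArg Subtype.val hQl
  -- the subspace `Y`
  set Y : Submodule K V := Submodule.span K {(l : V), X l} with hY
  have lY : (l : V) ∈ Y := Submodule.subset_span (Set.mem_insert _ _)
  have xlY : X (l : V) ∈ Y := Submodule.subset_span (Set.mem_insert_of_mem _ rfl)
  have YL : Y ≤ L := by
    rw [hY, Submodule.span_le]
    rintro _ (rfl | rfl)
    · exact l.2
    · exact XL _ l.2
  have HY : ∀ u ∈ Y, H u ∈ Y := by
    have : Y ≤ Y.comap H := by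
      rw [hY, Submodule.span_le]
      rintro _ (rfl | rfl)
      · change H (l : V) ∈ Y
        rw [hHl']
        exact Y.smul_mem _ lY
      · change H (X (l : V)) ∈ Y
        have e1 : H (X (l : V)) = t • (l : V) - c • X (l : V) - c • (l : V) := by
          rw [← hQl', hQu, hHl', map_smul]
          abel
        rw [e1]
        exact Y.sub_mem (Y.sub_mem (Y.smul_mem _ lY) (Y.smul_mem _ xlY)) (Y.smul_mem _ lY)
    exact this
  have XY : ∀ u ∈ Y, X u ∈ Y := by
    have : Y ≤ Y.comap X := by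
      rw [hY, Submodule.span_le]
      rintro _ (rfl | rfl)
      · exact xlY
      · change X (X (l : V)) ∈ Y
        rw [hX, hq]
        exact Y.sub_mem (Y.neg_mem xlY) lY
    exact this
  have Y12 : ∀ u ∈ Y, ρ (T 1) (ρ (T 2) u) ∈ Y := by
    intro u hu
    rw [← rho_mul, D.t12]
    simp only [rho_mul]
    rw [rL' 3 u (YL hu), rL' 1 u (YL hu)]
    have e : ∀ u, ρ s (ρ h (ρ s u)) = H u := fun u => by rw [hH, rho_mul, rho_mul]
    simp only [e]
    exact XY _ (XY _ (HY _ (XY _ (HY _ (XY _ (XY _ (HY _ (XY _ hu))))))))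
  have Y13 : ∀ u ∈ Y, ρ (T 1) (ρ (T 3) u) ∈ Y := by
    intro u hu
    rw [← rho_mul, D.t13]
    simp only [rho_mul]
    rw [rL' 1 u (YL hu), rL' 4 u (YL hu)]
    have e : ∀ u, ρ s (ρ h (ρ s u)) = H u := fun u => by rw [hH, rho_mul, rho_mul]
    simp only [e]
    exact XY _ (HY _ (XY _ (XY _ (HY _ (XY _ (HY _ (XY _ (HY _ hu))))))))
  -- the subspace `W`
  set W : Submodule K V := Y ⊔ Y.map (ρ (T 1)) ⊔ Y.map (ρ s) with hW
  have w1 : ∀ u ∈ Y, u ∈ W := fun u hu => Submodule.mem_sup_left (Submodule.mem_sup_left hu)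
  have w2 : ∀ u ∈ Y, ρ (T 1) u ∈ W := fun u hu => Submodule.mem_sup_left (Submodule.mem_sup_right ⟨u, hu, rfl⟩)
  have w3 : ∀ u ∈ Y, ρ s u ∈ W := fun u hu => Submodule.mem_sup_right ⟨u, hu, rfl⟩
  have key : ∀ a : G, (∀ u ∈ Y, ρ a u ∈ W) → (∀ u ∈ Y, ρ a (ρ (T 1) u) ∈ W) → (∀ u ∈ Y, ρ a (ρ s u) ∈ W) →
      ∀ u ∈ W, ρ a u ∈ W := by
    intro a a1 a2 a3
    have : W ≤ W.comap (ρ a) := by
      rw [hW]
      refine sup_le (sup_le ?_ ?_) ?_
      · exact fun u hu => a1 u hu
      · rintro _ ⟨u, hu, rfl⟩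
        exact a2 u hu
      · rintro _ ⟨u, hu, rfl⟩
        exact a3 u hu
    exact this
  have zY1 : ∀ u ∈ Y, ρ z (ρ (T 1) u) = ρ (T 1) u := by
    intro u hu
    rw [← rho_mul, D.zT, rho_mul, zL u (YL hu)]
  -- anticommutation on the fixed space of `z`
  have anti : ∀ i j, i ≠ j → ∀ u, ρ z u = u → ρ (T i) (ρ (T j) u) = -(ρ (T j) (ρ (T i) u)) := by
    intro i j hij u hu
    rw [← rho_mul, D.anti i j hij, rho_mul, hng]
    change -(ρ (z * (T j * T i)) u) = _
    rw [show z * (T j * T i) = T j * (T i * z) by rw [← mul_assoc, D.zT, mul_assoc, D.zT], rho_mul, rho_mul, hu]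
  have iz : ∀ u ∈ W, ρ z u ∈ W := by
    apply key
    · intro u hu; rw [zL u (YL hu)]; exact w1 u hu
    · intro u hu; rw [zY1 u hu]; exact w2 u hu
    · intro u hu; rw [sL u (YL hu)]; exact W.neg_mem (w3 u hu)
  have ing : ∀ u ∈ W, ρ ng u ∈ W := by
    intro u hu
    rw [hng]
    exact W.neg_mem hu
  have i0 : ∀ u ∈ W, ρ (T 0) u ∈ W := by
    apply key
    · intro u hu; rw [mL.1 (YL hu)]; exact W.neg_mem (w1 u hu)
    · intro u hu
      rw [anti 0 1 (by decide) u (zL u (YL hu)), mL.1 (YL hu), map_neg, neg_neg]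
      exact w2 u hu
    · intro u hu; rw [tsL 0 u (YL hu)]; exact w3 u hu
  have i1 : ∀ u ∈ W, ρ (T 1) u ∈ W := by
    apply key
    · exact w2
    · intro u hu; rw [TT]; exact w1 u hu
    · intro u hu; rw [tsL 1 u (YL hu)]; exact w3 u hu
  have i2 : ∀ u ∈ W, ρ (T 2) u ∈ W := by
    apply key
    · intro u hu
      rw [← TT 1 (ρ (T 2) u)]
      exact w2 _ (Y12 u hu)
    · intro u hu
      rw [anti 2 1 (by decide) u (zL u (YL hu))]
      exact W.neg_mem (w1 _ (Y12 u hu))
    · intro u hu; rw [tsL 2 u (YL hu)]; exact w3 u hu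
  have i3 : ∀ u ∈ W, ρ (T 3) u ∈ W := by
    apply key
    · intro u hu
      rw [← TT 1 (ρ (T 3) u)]
      exact w2 _ (Y13 u hu)
    · intro u hu
      rw [anti 3 1 (by decide) u (zL u (YL hu))]
      exact W.neg_mem (w1 _ (Y13 u hu))
    · intro u hu; rw [tsL 3 u (YL hu)]; exact w3 u hu
  have i4 : ∀ u ∈ W, ρ (T 4) u ∈ W := by
    intro u hu
    have e : T 4 = T 3 * (T 2 * (T 1 * (T 0 * (ng * z)))) := by
      have hi : ∀ i, (T i)⁻¹ = T i := fun i => inv_eq_of_mul_eq_one_left (D.TT i)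
      calc T 4 = (T 3)⁻¹ * ((T 2)⁻¹ * ((T 1)⁻¹ * ((T 0)⁻¹ * (T 0 * T 1 * T 2 * T 3 * T 4)))) := by group
        _ = T 3 * (T 2 * (T 1 * (T 0 * (ng * z)))) := by rw [D.prod, hi, hi, hi, hi]
    rw [e]
    simp only [rho_mul]
    exact i3 _ (i2 _ (i1 _ (i0 _ (ing _ (iz _ hu)))))
  have is : ∀ u ∈ W, ρ s u ∈ W := by
    apply key
    · exact w3
    · intro u hu
      have e : s * T 1 = T 1 * (s * T 1 * s) := by
        rw [← D.ts]
        calc s * T 1 = (T 1 * T 1) * s * T 1 := by rw [D.TT, one_mul]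
          _ = T 1 * (T 1 * s * T 1) := by group
      rw [← rho_mul, e, rho_mul, rL 1 u (YL hu)]
      exact w2 u hu
    · intro u hu; rw [ss]; exact w1 u hu
  have ih : ∀ u ∈ W, ρ h u ∈ W := by
    have hform : ∀ u ∈ W, ρ z u = u → ρ h u ∈ W := by
      intro u hu hz
      rw [D.conj_eq ρ h2 hng hU D.hg D.gz' D.gT' hz]
      exact W.smul_mem _ (W.sub_mem (i2 _ (W.sub_mem (i1 _ hu) (i0 _ hu))) (i4 _ (W.sub_mem (i1 _ hu) (i0 _ hu))))
    apply key
    · intro u hu
      exact hform u (w1 u hu) (zL u (YL hu))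
    · intro u hu
      exact hform _ (w2 u hu) (zY1 u hu)
    · intro u hu
      have e : h * s = s * (s * h * s) := by
        calc h * s = (s * s) * h * s := by rw [D.ss, one_mul]
          _ = s * (s * h * s) := by group
      rw [← rho_mul, e, rho_mul]
      exact w3 _ (HY u hu)
  have ix : ∀ u ∈ W, ρ x u ∈ W := by
    apply key
    · intro u hu
      exact w1 _ (XY u hu)
    · intro u hu
      have e : x * T 1 = T 2 * x := D.xT 1
      rw [← rho_mul, e, rho_mul]
      exact i2 _ (w1 _ (XY u hu))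
    · intro u hu
      rw [← rho_mul, ← D.sx, rho_mul]
      exact w3 _ (XY u hu)
  have hall : ∀ a : G, ∀ u ∈ W, ρ a u ∈ W := by
    intro a
    have ha : a ∈ Subgroup.closure ({ng, z, s, h, x} ∪ Set.range T) := by rw [D.gen]; trivial
    induction ha using Subgroup.closure_induction with
    | mem a ha =>
      rcases ha with ha | ⟨i, rfl⟩
      · rcases ha with rfl | rfl | rfl | rfl | rfl
        · exact ing
        · exact iz
        · exact is
        · exact ih
        · exact ix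
      · fin_cases i
        · exact i0
        · exact i1
        · exact i2
        · exact i3
        · exact i4
    | one =>
      intro u hu
      rw [map_one]; exact hu
    | mul a b _ _ ha hb =>
      intro u hu
      rw [rho_mul]
      exact ha _ (hb _ hu)
    | inv a _ ha =>
      intro u hu
      have hinj : Function.Injective ((ρ a).restrict ha) := fun u v huv =>
        Subtype.ext (rho_injective ρ a (congrArg Subtype.val huv))
      obtain ⟨v, hv⟩ := (LinearMap.injective_iff_surjective.1 hinj) ⟨u, hu⟩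
      have hv' : ρ a (v : V) = u := congrArg Subtype.val hv
      rw [← hv', ← rho_mul, inv_mul_cancel, map_one]
      exact v.2
  have hWtop : W = ⊤ := by
    refine (hirr W hall).resolve_left fun h0 => hl0 ?_
    have h1 := w1 _ lY
    rw [h0, Submodule.mem_bot] at h1
    exact Subtype.ext h1
  have hY2 : finrank K Y ≤ 2 := by
    classical
    have h1 := finrank_span_finset_le_card (R := K) ({(l : V), X l} : Finset V)
    rw [Finset.coe_pair] at h1
    exact h1.trans (Finset.card_le_two)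
  have h3 : finrank K W ≤ 6 := by
    have e1 := Submodule.finrank_add_le_finrank_add_finrank (Y ⊔ Y.map (ρ (T 1))) (Y.map (ρ s))
    have e2 := Submodule.finrank_add_le_finrank_add_finrank Y (Y.map (ρ (T 1)))
    have e3 := Submodule.finrank_map_le (ρ (T 1)) Y
    have e4 := Submodule.finrank_map_le (ρ s) Y
    rw [hW]
    omega
  rw [hWtop, finrank_top] at h3
  omega

end Cfsg.Agent.H4.JT
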