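import Cfsg.Agent.H4.JT.Frame

/-!
# Frames: the case where the central involution acts trivially

`FD.plus` : the degree is at least 13.
-/

set_option autoImplicit false

namespace Cfsg.Agent.H4.JT

open Module H1.EightA

variable {K : Type*} [Field K] {V : Type*} [AddCommGroup V] [Module K V] [FiniteDimensional K V]

theorem exists_sign (h2 : (2 : K) ≠ 0) {S : Submodule K V} (hS : S ≠ ⊥) {A : End K V} (hA : ∀ u, A (A u) = u)
    (hinv : ∀ u ∈ S, A u ∈ S) : ∃ a : Bool, S ⊓ Ei A a ≠ ⊥ := by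
  by_contra hcon
  push Not at hcon
  have h1 := split h2 S hA hinv
  rw [hcon false, hcon true, finrank_bot] at h1
  exact hS (Submodule.finrank_eq_zero.1 h1)

omit [FiniteDimensional K V] in
theorem sg_sq (a : Bool) : sg K a * sg K a = 1 := by cases a <;> simp [sg]

omit [FiniteDimensional K V] in
theorem sg_ne_zero (a : Bool) : sg K a ≠ 0 := by
  intro h
  have := sg_sq (K := K) a
  rw [h, mul_zero] at this
  exact zero_ne_one this

omit [FiniteDimensional K V] in
theorem sg_not (a : Bool) : sg K (!a) = -sg K a := by cases a <;> simp [sg]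

/-- the four permutations -/
def sgm (m : Fin 4) : Fin 5 → Fin 5 := match m with
  | 0 => id
  | 1 => ![0, 4, 3, 2, 1]
  | 2 => ![0, 3, 4, 1, 2]
  | 3 => ![0, 2, 1, 4, 3]

theorem sgm_ok : ∀ k : Fin 5, k ≠ 0 → ∀ m m' : Fin 4, m' ≠ m → ∃ j : Fin 5, j ≠ 0 ∧ j ≠ k ∧ sgm m j = sgm m' k := by
  decide

theorem sign_ok : ∀ a b c : Bool, ∃ k : Fin 5, k ≠ 0 ∧ ∀ j : Fin 5, j ≠ 0 → j ≠ k →
    (![true, a, b, c, !(xor a (xor b c))] : Fin 5 → Bool) j = !(![true, a, b, c, !(xor a (xor b c))] : Fin 5 → Bool) k := by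
  decide

theorem sign_ok' : ∀ a b c : Bool, ∃ j : Fin 5, (![true, a, b, c, !(xor a (xor b c))] : Fin 5 → Bool) j = false := by
  decide

theorem gam_ok : ∀ j : Fin 5, (![4, 0, 1, 2, 3] : Fin 5 → Fin 5)^[(j : ℕ)] j = 0 := by decide

variable {G : Type*} [Group G] {ng z s v x w h g g' y1 y2 : G} {T : Fin 5 → G}

/-- **the case `ng ↦ 1`** -/
theorem FD.plus (D : FD ng z s v x w h g g' y1 y2 T) (ρ : G →* End K V) (h2 : (2 : K) ≠ 0)
    (hng : ρ ng = 1) (hz : ρ z ≠ 1) : 13 ≤ finrank K V := by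
  have hzz : ∀ u, ρ z (ρ z u) = u := fun u => by rw [← rho_mul, D.zz, map_one]; rfl
  have TT : ∀ i u, ρ (T i) (ρ (T i) u) = u := fun i u => by rw [← rho_mul, D.TT, map_one]; rfl
  have zT : ∀ i u, ρ z (ρ (T i) u) = ρ (T i) (ρ z u) := fun i u => by rw [← rho_mul, D.zT, rho_mul]
  have anti : ∀ i j, i ≠ j → ∀ u, ρ (T i) (ρ (T j) u) = ρ (T j) (ρ (T i) (ρ z u)) := by
    intro i j hij u
    rw [← rho_mul, D.anti i j hij, rho_mul, hng]
    change ρ (z * (T j * T i)) u = _
    rw [show z * (T j * T i) = T j * (T i * z) by rw [← mul_assoc, D.zT, mul_assoc, D.zT], rho_mul, rho_mul]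
  have zs : z * s = s * T 0 := by
    calc z * s = s * (s * z) * s := by rw [← mul_assoc, D.ss, one_mul]
      _ = s * T 0 * (s * s) := by rw [D.sz]; group
      _ = s * T 0 := by rw [D.ss, mul_one]
  have hEq : finrank K (Ei (ρ (T 0)) true) = finrank K (Ei (ρ z) true) := by
    apply le_antisymm
    · apply finrank_le_of_map (ρ s) (rho_injective ρ s)
      intro u hu
      rw [mEt] at hu ⊢
      rw [← rho_mul, zs, rho_mul, hu, map_neg]
    · apply finrank_le_of_map (ρ s) (rho_injective ρ s)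
      intro u hu
      rw [mEt] at hu ⊢
      rw [← rho_mul, ← D.sz, rho_mul, hu, map_neg]
  have s1 := split h2 (⊤ : Submodule K V) (T := ρ z) hzz (fun _ _ => trivial)
  rw [top_inf_eq, top_inf_eq, finrank_top] at s1
  have s2 := split h2 (Ei (ρ z) true) (T := ρ (T 0)) (TT 0) (fun u hu => by
    rw [mEt] at hu ⊢
    rw [zT, hu, map_neg])
  have s3 := split h2 (Ei (ρ z) false) (T := ρ (T 0)) (TT 0) (fun u hu => by
    rw [mEf] at hu ⊢
    rw [zT, hu])
  have s4 := split h2 (Ei (ρ (T 0)) true) (T := ρ z) hzz (fun u hu => by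
    rw [mEt] at hu ⊢
    rw [← zT, hu, map_neg])
  rw [inf_comm (Ei (ρ (T 0)) true) (Ei (ρ z) false), inf_comm (Ei (ρ (T 0)) true) (Ei (ρ z) true)] at s4
  have e1 : finrank K (Ei (ρ z) true ⊓ Ei (ρ (T 0)) false : Submodule K V) ≤
      finrank K (Ei (ρ z) true ⊓ Ei (ρ (T 0)) true : Submodule K V) := by
    apply finrank_le_of_map (ρ (T 1)) (rho_injective ρ _)
    rintro u ⟨h1, h3⟩
    have h1' := mEt.1 h1
    have h3' := mEf.1 h3
    refine ⟨mEt.2 ?_, mEt.2 ?_⟩
    · rw [zT, h1', map_neg]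
    · rw [anti 0 1 (by decide), h1', map_neg, map_neg, h3']
  have e2 : finrank K (Ei (ρ z) true ⊓ Ei (ρ (T 0)) true : Submodule K V) ≤
      finrank K (Ei (ρ z) true ⊓ Ei (ρ (T 0)) false : Submodule K V) := by
    apply finrank_le_of_map (ρ (T 1)) (rho_injective ρ _)
    rintro u ⟨h1, h3⟩
    have h1' := mEt.1 h1
    have h3' := mEt.1 h3
    refine ⟨mEt.2 ?_, mEf.2 ?_⟩
    · rw [zT, h1', map_neg]
    · rw [anti 0 1 (by decide), h1', map_neg, map_neg, h3', map_neg, neg_neg]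
  have hpos : finrank K (Ei (ρ z) true) ≠ 0 := by
    intro h0
    apply hz
    have h1 := Submodule.finrank_eq_zero.1 h0
    apply LinearMap.ext
    intro u
    have h3 : u - ρ z u ∈ Ei (ρ z) true := by
      rw [mEt, map_sub, hzz]; abel
    rw [h1, Submodule.mem_bot, sub_eq_zero] at h3
    exact h3.symm
  -- the space `C0`
  set C0 : Submodule K V := Ei (ρ z) false ⊓ Ei (ρ (T 0)) true with hC0
  have hC0pos : C0 ≠ ⊥ := by
    intro h0
    rw [h0, finrank_bot] at s3 s4
    omega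
  have mC : ∀ {u}, u ∈ C0 ↔ ρ z u = u ∧ ρ (T 0) u = -u := by
    intro u
    rw [hC0, Submodule.mem_inf, mEf, mEt]
  have comm : ∀ i j, ∀ u, ρ z u = u → ρ (T i) (ρ (T j) u) = ρ (T j) (ρ (T i) u) := by
    intro i j u hu
    by_cases hij : i = j
    · rw [hij]
    · rw [anti i j hij, hu]
  obtain ⟨a, ha⟩ := exists_sign h2 hC0pos (TT 1) (fun u hu => by
    rw [mC] at hu ⊢
    exact ⟨by rw [zT, hu.1], by rw [comm 0 1 u hu.1, hu.2, map_neg]⟩)
  obtain ⟨b, hb⟩ := exists_sign h2 ha (TT 2) (by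
    rintro u ⟨h1, h3⟩
    have h1' := mC.1 h1
    have h3' := mem_Ei.1 h3
    refine ⟨mC.2 ⟨by rw [zT, h1'.1], by rw [comm 0 2 u h1'.1, h1'.2, map_neg]⟩, mem_Ei.2 ?_⟩
    rw [comm 1 2 u h1'.1, h3', map_smul])
  obtain ⟨c, hc⟩ := exists_sign h2 hb (TT 3) (by
    rintro u ⟨⟨h1, h3⟩, h4⟩
    have h1' := mC.1 h1
    have h3' := mem_Ei.1 h3
    have h4' := mem_Ei.1 h4
    refine ⟨⟨mC.2 ⟨by rw [zT, h1'.1], by rw [comm 0 3 u h1'.1, h1'.2, map_neg]⟩, mem_Ei.2 ?_⟩, mem_Ei.2 ?_⟩
    · rw [comm 1 3 u h1'.1, h3', map_smul]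
    · rw [comm 2 3 u h1'.1, h4', map_smul])
  obtain ⟨u, hu, hu0⟩ := Submodule.exists_mem_ne_zero_of_ne_bot hc
  obtain ⟨⟨⟨hu1, hu2⟩, hu3⟩, hu4⟩ := hu
  have hu1' := mC.1 hu1
  have hu2' := mem_Ei.1 hu2
  have hu3' := mem_Ei.1 hu3
  have hu4' := mem_Ei.1 hu4
  set ε : Fin 5 → Bool := ![true, a, b, c, !(xor a (xor b c))] with hε
  have hT : ∀ i, ρ (T i) u = sg K (ε i) • u := by
    intro i
    fin_cases i
    · rw [show sg K (ε ((fun i => i) ⟨0, by norm_num⟩)) = -1 from rfl, neg_one_smul]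
      exact hu1'.2
    · exact hu2'
    · exact hu3'
    · exact hu4'
    · have e : T 4 = T 3 * (T 2 * (T 1 * (T 0 * (ng * z)))) := by
        have hi : ∀ i, (T i)⁻¹ = T i := fun i => inv_eq_of_mul_eq_one_left (D.TT i)
        calc T 4 = (T 3)⁻¹ * ((T 2)⁻¹ * ((T 1)⁻¹ * ((T 0)⁻¹ * (T 0 * T 1 * T 2 * T 3 * T 4)))) := by group
          _ = T 3 * (T 2 * (T 1 * (T 0 * (ng * z)))) := by rw [D.prod, hi, hi, hi, hi]
      change ρ (T 4) u = sg K (!(xor a (xor b c))) • u
      rw [e]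
      simp only [rho_mul]
      rw [hu1'.1, hng, End.one_apply, hu1'.2, map_neg, hu2', map_neg, map_smul, hu3', map_neg, map_smul, map_smul,
        hu4', smul_smul, smul_smul, ← neg_smul, sg_not]
      congr 2
      cases a <;> cases b <;> cases c <;> simp [sg]
  -- four independent vectors
  obtain ⟨k, hk0, hk⟩ := sign_ok a b c
  have hyT : ∀ m : Fin 4, ∃ y : G, y * z = z * y ∧ ∀ i, y * T i = T (sgm m i) * y := by
    intro m
    fin_cases m
    · exact ⟨1, by rw [one_mul, mul_one], fun i => by rw [one_mul, mul_one]; rfl⟩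
    · exact ⟨y1, D.yz, D.yT⟩
    · exact ⟨y2, D.yz', D.yT'⟩
    · refine ⟨y1 * y2, by rw [mul_assoc, D.yz', ← mul_assoc, D.yz, mul_assoc], fun i => ?_⟩
      rw [mul_assoc, D.yT', ← mul_assoc, D.yT, mul_assoc]
      congr 2
      fin_cases i <;> rfl
  choose y hyz hyT using hyT
  have hd : 4 ≤ finrank K C0 := by
    let f : Fin 4 → C0 := fun m => ⟨ρ (y m) u, by
      have h0 : sgm m 0 = 0 := by fin_cases m <;> rfl
      rw [mC]
      constructor
      · rw [← rho_mul, ← hyz, rho_mul, hu1'.1]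
      · have := hyT m 0
        rw [h0] at this
        rw [← rho_mul, ← this, rho_mul, hu1'.2, map_neg]⟩
    have hli : LinearIndependent K f := by
      rw [Fintype.linearIndependent_iff]
      intro c' hc' m
      have h1 : ∑ i, c' i • ρ (y i) u = 0 := by
        have := congrArg Subtype.val hc'
        simpa using this
      have h3 : ρ (T (sgm m k)) (∑ i, c' i • ρ (y i) u) + sg K (ε k) • ∑ i, c' i • ρ (y i) u = 0 := by
        rw [h1, map_zero, smul_zero, add_zero]
      rw [map_sum, Finset.smul_sum, ← Finset.sum_add_distrib, Finset.sum_eq_single m] at h3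
      · have h4 : ρ (T (sgm m k)) (ρ (y m) u) = sg K (ε k) • ρ (y m) u := by
          rw [← rho_mul, ← hyT, rho_mul, hT, map_smul]
        rw [map_smul, h4, smul_comm (sg K (ε k)) (c' m), ← smul_add, ← add_smul] at h3
        have h5 : sg K (ε k) + sg K (ε k) ≠ 0 := by
          rw [← two_mul]
          exact mul_ne_zero h2 (sg_ne_zero _)
        have h6 : ρ (y m) u ≠ 0 := fun h => hu0 ((map_eq_zero_iff _ (rho_injective ρ (y m))).1 h)
        exact (smul_eq_zero.1 h3).resolve_right (smul_ne_zero h5 h6)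
      · intro m' _ hm'
        obtain ⟨j, hj0, hjk, hj⟩ := sgm_ok k hk0 m' m (fun h => hm' h.symm)
        have h4 : ρ (T (sgm m k)) (ρ (y m') u) = -(sg K (ε k) • ρ (y m') u) := by
          rw [← hj, ← rho_mul, ← hyT, rho_mul, hT, map_smul]
          have : ε j = !(ε k) := hk j hj0 hjk
          rw [this, sg_not, neg_smul]
        rw [map_smul, h4, smul_neg, smul_comm (c' m') (sg K (ε k)), neg_add_cancel]
      · intro h
        exact absurd (Finset.mem_univ m) h
    have := hli.fintype_card_le_finrank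
    rwa [Fintype.card_fin] at this
  -- a vector with `T 0 = 1`
  have hlast : finrank K (Ei (ρ z) false ⊓ Ei (ρ (T 0)) false : Submodule K V) ≠ 0 := by
    intro h0
    have h1 := Submodule.finrank_eq_zero.1 h0
    obtain ⟨j, hj⟩ := sign_ok' a b c
    have hgz : ∀ m : ℕ, g ^ m * z = z * g ^ m := fun m => (Commute.pow_left (show Commute g z from D.gz) m).eq
    have hgT : ∀ (m : ℕ) (i : Fin 5), g ^ m * T i = T ((![4, 0, 1, 2, 3] : Fin 5 → Fin 5)^[m] i) * g ^ m := by
      intro m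
      induction m with
      | zero => intro i; rw [pow_zero, one_mul, mul_one]; rfl
      | succ m ih =>
        intro i
        rw [pow_succ, mul_assoc, D.gT, ← mul_assoc, ih, mul_assoc]
        rfl
    have h3 : ρ (g ^ (j : ℕ)) u ∈ Ei (ρ z) false ⊓ Ei (ρ (T 0)) false := by
      refine ⟨mEf.2 ?_, mEf.2 ?_⟩
      · rw [← rho_mul, ← hgz, rho_mul, hu1'.1]
      · have := hgT j j
        rw [gam_ok j] at this
        rw [← rho_mul, ← this, rho_mul, hT, show ε j = false from hj]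
        simp [sg]
    rw [h1, Submodule.mem_bot] at h3
    exact hu0 ((map_eq_zero_iff _ (rho_injective ρ _)).1 h3)
  omega

end Cfsg.Agent.H4.JT
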