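import Cfsg.Agent.H919.ExtForm

/-!
# The representation over an extension field

`rp K f : G →* End_K(K^ι)` for `f : G →* GL ι F`; `rp_irr` : it is irreducible if the image of `f` is absolutely
irreducible; `trace_rp`.
-/

set_option autoImplicit false

namespace Cfsg.Agent.H4.JT

open Cfsg Cfsg.Geo Matrix Module Cfsg.Agent.H915.LD

universe u v w

variable {ι : Type} [Fintype ι] [DecidableEq ι] {F : Type u} [Field F] {G : Type w} [Group G]

/-- the representation over `K` -/
noncomputable def rp (K : Type v) [Field K] [Algebra F K] (f : G →* GL ι F) : G →* Module.End K (ι → K) :=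
  ((Matrix.toLinAlgEquiv' : Matrix ι ι K ≃ₐ[K] _).toMonoidHom.comp
    ((algebraMap F K).mapMatrix.toMonoidHom)).comp ((Units.coeHom _).comp f)

variable {K : Type v} [Field K] [Algebra F K] {f : G →* GL ι F}

theorem rp_apply (g : G) (x : ι → K) :
    rp K f g x = ((f g : GL ι F) : Matrix ι ι F).map (algebraMap F K) *ᵥ x := rfl

theorem rp_eq (g : G) : rp K f g = Matrix.toLin' (((f g : GL ι F) : Matrix ι ι F).map (algebraMap F K)) := rfl

theorem trace_rp (g : G) : LinearMap.trace K (ι → K) (rp K f g) = algebraMap F K (tr (f g)) := by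
  rw [rp_eq, Matrix.trace_toLin'_eq]
  unfold tr
  rw [Matrix.trace, Matrix.trace, map_sum]
  rfl

theorem rp_of_neg {g : G} (h : ((f g : GL ι F) : Matrix ι ι F) = -1) : rp K f g = -1 := by
  rw [rp_eq, h]
  have : (-1 : Matrix ι ι F).map (algebraMap F K) = -1 := by
    ext i j
    rw [Matrix.map_apply, Matrix.neg_apply, Matrix.neg_apply, map_neg]
    congr 1
    by_cases hij : i = j
    · subst hij; rw [one_apply_eq, one_apply_eq, map_one]
    · rw [one_apply_ne hij, one_apply_ne hij, map_zero]
  rw [this, map_neg, Matrix.toLin'_one]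
  rfl

theorem rp_of_one {g : G} (h : f g = 1) : rp K f g = 1 := by
  rw [rp_eq, h, Units.val_one, Matrix.map_one _ (map_zero _) (map_one _), Matrix.toLin'_one]
  rfl

/-- kernel -/
theorem of_rp_eq_one {g : G} (h : rp K f g = 1) : f g = 1 := by
  apply Units.ext
  rw [Units.val_one]
  have h1 : ((f g : GL ι F) : Matrix ι ι F).map (algebraMap F K) = 1 := by
    apply Matrix.toLin'.injective
    rw [← rp_eq, h, Matrix.toLin'_one]
    rfl
  ext i j
  have h2 := congrFun (congrFun h1 i) j
  rw [Matrix.map_apply] at h2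
  apply (algebraMap F K).injective
  rw [h2]
  by_cases hij : i = j
  · subst hij; rw [one_apply_eq, one_apply_eq, map_one]
  · rw [one_apply_ne hij, one_apply_ne hij, map_zero]

/-- irreducible over `K` -/
theorem rp_irr {P : Subgroup (GL ι F)} (hP : ActsAbsolutelyIrreducibly (matrixSet P)) (hf : f.range = P)
    (X : Submodule K (ι → K)) (hX : ∀ g : G, ∀ x ∈ X, rp K f g x ∈ X) : X = ⊥ ∨ X = ⊤ := by
  apply H919.Q2.irr_ext (K := K) hP X
  rintro _ ⟨_, ⟨g, hg, rfl⟩, rfl⟩
  rw [SetLike.mem_coe, ← hf] at hg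
  obtain ⟨g', rfl⟩ := hg
  rintro _ ⟨x, hx, rfl⟩
  exact hX g' x hx

theorem rp_inj (g : G) : Function.Injective (rp K f g) := by
  intro u v h
  have h1 : rp K f g⁻¹ (rp K f g u) = rp K f g⁻¹ (rp K f g v) := by rw [h]
  rw [← Module.End.mul_apply, ← Module.End.mul_apply, ← map_mul, inv_mul_cancel, map_one] at h1
  exact h1

end Cfsg.Agent.H4.JT
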