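import Cfsg.Agent.H1.TJ2
import Cfsg.Agent.H4.JT.RepK
import Cfsg.Agent.H4.JT.FrameCert
import Cfsg.Agent.H4.JT.FrameMinus
import Cfsg.Agent.H4.JT.FramePlus

/-!
# The Hall-Janko group in odd characteristic, degree at most 12

`j2_odd` : a core of degree at most 12 of type `J2` over a field of characteristic not two has degree 6 and is an
image of the double cover with the central involution acting as `-1`.
-/

set_option autoImplicit false

namespace Cfsg.Agent.H4.JT

open Function Subgroup Cfsg Cfsg.Spor Cfsg.Geo Cfsg.Agent.H915.LD Cfsg.Agent.H1.RealTool Cfsg.Agent.H1.RealCover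
open Cfsg.Agent.J2.ZTau Cfsg.Agent.J2.Ico Cfsg.Agent.J2.Lattice Cfsg.Agent.J2.Refl
  Cfsg.Agent.J2.Group Cfsg.Agent.J2.Stab Cfsg.Agent.J2.SixGens
open Cfsg.Agent.H1.J2Lift Cfsg.Agent.H1.J2Words Cfsg.Agent.H4.JT.Fast

universe u

section gen

variable {K : Type*} [Field K] {V : Type*} [AddCommGroup V] [Module K V] (ρ : W →* Module.End K V)

/-- the operators -/
noncomputable def OE (L : List Vec) : Module.End K V := ρ (wd L)

theorem OE_append (L M : List Vec) (x : V) : OE ρ (L ++ M) x = OE ρ L (OE ρ M x) := by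
  unfold OE; rw [wd_append, map_mul]; rfl

theorem OE_nil (x : V) : OE ρ [] x = x := by
  unfold OE; rw [wd_nil, map_one]; rfl

theorem OE_eq {L M : List Vec} (h : Cfsg.Agent.J2.SixGens.chk L M = true) (x : V) : OE ρ L x = OE ρ M x := by
  unfold OE; rw [wd_eq h]

theorem OE_eqN (hng : ρ ng = -1) {L M : List Vec} (h : chkN L M = true) (x : V) : OE ρ L x = -(OE ρ M x) := by
  have h1 : wd L = ng * wd M := wd_eqN h
  unfold OE; rw [h1, map_mul, hng]; rfl

theorem OE_inj (L : List Vec) : Injective (OE ρ L) := rho_injective ρ _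

theorem rel_K (hng : ρ ng = -1) (nz : ∃ x, ρ (wd wZ) x ≠ -x) :
    H1.EightA.Rel (OE ρ wZ) (OE ρ wF) (OE ρ wV) (OE ρ wB) (fun i => OE ρ [tt i]) where
  zz x := by rw [← OE_append, OE_eq ρ k_zz, OE_nil]
  TT i x := by
    change OE ρ [tt i] (OE ρ [tt i] x) = x
    rw [← OE_append]
    exact (OE_eq ρ (k_TT i) x).trans (OE_nil ρ x)
  zT i x := by
    change OE ρ [tt i] (OE ρ wZ x) = OE ρ wZ (OE ρ [tt i] x)
    rw [← OE_append, OE_eq ρ (k_zT i), OE_append]
  anti i j hij x := by
    change OE ρ [tt i] (OE ρ [tt j] x) = -(OE ρ wZ (OE ρ [tt j] (OE ρ [tt i] x)))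
    rw [← OE_append, ← OE_append, ← OE_append]
    exact OE_eqN ρ hng (k_anti i j hij) x
  fz x := by rw [← OE_append, OE_eq ρ k_fz, OE_append]
  fT i x := by
    change OE ρ wF (OE ρ [tt i] x) = OE ρ [tt (i + 1)] (OE ρ wF x)
    rw [← OE_append, OE_eq ρ (k_fT i), OE_append]
  f5 := OE_inj ρ _
  vi := OE_inj ρ _
  bi := OE_inj ρ _
  vz x := by rw [← OE_append, OE_eq ρ k_vz, OE_append]
  bz x := by rw [← OE_append, OE_eq ρ k_bz, OE_append]
  vb x := by rw [← OE_append, OE_eqN ρ hng k_vb, OE_append]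
  vT i := ⟨vp i, fun x => by
    change OE ρ wV (OE ρ [tt i] x) = OE ρ [tt (vp i)] (OE ρ wV x)
    rw [← OE_append, OE_eq ρ (k_vT i), OE_append]⟩
  bT i := ⟨bp i, fun x => by
    change OE ρ wB (OE ρ [tt i] x) = OE ρ [tt (bp i)] (OE ρ wB x)
    rw [← OE_append, OE_eq ρ (k_bT i), OE_append]⟩
  v0 x := by
    change OE ρ wV (OE ρ [tt 0] x) = OE ρ [tt 0] (OE ρ wV x)
    rw [← OE_append, OE_eq ρ (k_vT 0), OE_append]; rfl
  prod x := by
    change OE ρ [tt 0] (OE ρ [tt 1] (OE ρ [tt 2] (OE ρ [tt 3] (OE ρ [tt 4] x)))) = -(OE ρ wZ x)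
    rw [← OE_append, ← OE_append, ← OE_append, ← OE_append]
    exact OE_eqN ρ hng k_prod x
  nz := nz

/-- the numbers of the reflections -/
def tn : Fin 5 → ZMod 5 := ![0, 1, 2, 3, 4]

theorem tt_eq : ∀ i : Fin 5, Cfsg.Agent.J2.SixGens.chk (wq (FC.Tl i)) [tt (tn i)] = true := by decide +kernel

theorem z_eq : Wd FC.zl = wd wZ := (CA.let2_eq 0).symm

variable [FiniteDimensional K V]

theorem fix_K (hng : ρ ng = -1) (nz : ∃ x, ρ (wd wZ) x ≠ -x) (h2 : (2 : K) ≠ 0) (hn : Module.finrank K V ≤ 12)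
    (i : Fin 5) (u : V) (hu : ρ (Wd FC.zl) u = -u) : ρ (Wd (FC.Tl i)) u = u := by
  have h1 : Wd (FC.Tl i) = wd [tt (tn i)] := wd_eq (tt_eq i)
  rw [z_eq] at hu
  rw [h1]
  exact H1.EightA.fixed h2 (rel_K ρ hng nz) (hn.trans (by norm_num)) hu (tn i)

end gen

variable {ι : Type} [Fintype ι] [DecidableEq ι] {F : Type u} [Field F] {P : Subgroup (Matrix.GeneralLinearGroup ι F)}

/-- **odd characteristic** -/
theorem j2_odd (hC : Core P) (e : Soc P ≃* J2) (h2 : (2 : F) ≠ 0) (hn : Fintype.card ι ≤ 12) :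
    Fintype.card ι = 6 ∧ ∃ φ : W →* P, Surjective φ ∧ (∀ z, pj P e (φ z) = pr z) ∧
      (((φ ng : P) : Matrix.GeneralLinearGroup ι F) : Matrix ι ι F) = -1 := by
  obtain ⟨φ, hs, hp⟩ := H1.TJ2.exists_cover hC e
  let K := AlgebraicClosure F
  have h2K : (2 : K) ≠ 0 := by
    intro h
    apply h2
    apply (algebraMap F K).injective
    rw [map_ofNat, map_zero, h]
  let f : W →* Matrix.GeneralLinearGroup ι F := P.subtype.comp φ
  have hf : f.range = P := by
    change (P.subtype.comp φ).range = P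
    rw [MonoidHom.range_comp, MonoidHom.range_eq_top.2 hs, ← MonoidHom.range_eq_map, Subgroup.range_subtype]
  have hfin : Module.finrank K (ι → K) = Fintype.card ι := Module.finrank_fintype_fun_eq_card K
  have hker : ∀ w : W, rp K f w = 1 → pr w = 1 := by
    intro w hw
    have h1 : f w = 1 := of_rp_eq_one hw
    have h3 : φ w = 1 := Subtype.ext h1
    rw [← hp, h3, map_one]
  rcases H1.TJ2.ng_image e hp with h | h
  · exfalso
    have h1 : rp K f ng = 1 := rp_of_one (Units.ext h)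
    have h3 := FC.fd.plus (rp K f) h2K h1 (by
      intro h4
      have h5 := hker _ h4
      rw [z_eq] at h5
      exact z_ne_one h5)
    rw [hfin] at h3
    omega
  · have h1 : rp K f ng = -1 := rp_of_neg h
    have hnz : ∃ x, rp K f (wd wZ) x ≠ -x := by
      by_contra hcon
      push Not at hcon
      have h3 : rp K f (wd wZ) = -1 := LinearMap.ext hcon
      have h4 : rp K f (wd wZ * ng) = 1 := by
        apply LinearMap.ext
        intro u
        rw [rho_mul, h1, h3]
        change -(-u) = u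
        rw [neg_neg]
      have h5 := hker _ h4
      rw [map_mul, show pr ng = 1 from pr_neg, mul_one] at h5
      exact z_ne_one h5
    have hpos : 0 < Module.finrank K (ι → K) := by
      rw [hfin]
      have := hC.two_le
      omega
    have h6 := FC.fd.minus (rp K f) h2K h1 (fix_K _ h1 hnz h2K (by rw [hfin]; exact hn)) (by rw [hfin]; exact hn) hpos
      (fun X hX => rp_irr hC.absIrred hf X hX)
    rw [hfin] at h6
    exact ⟨h6, φ, hs, hp, h⟩

end Cfsg.Agent.H4.JT
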