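import Cfsg.Agent.H4.JT.DegOdd
import Cfsg.Agent.H4.JT.FiveTr

/-!
# The Hall-Janko group in odd characteristic: the field

`j2_six_field` : for `p` odd, a core of degree six of type `J2` is written over `GF(p)` if `p` is 0 or ±1 modulo 5
and over `GF(p²)` otherwise.
-/

set_option autoImplicit false
set_option maxRecDepth 100000

namespace Cfsg.Agent.H4.JT

open Function Subgroup Cfsg Cfsg.Spor Cfsg.Geo Cfsg.Agent.H915.LD Cfsg.Agent.H1.RealTool Cfsg.Agent.H1.RealCover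
open Cfsg.Agent.J2.ZTau Cfsg.Agent.J2.Ico Cfsg.Agent.J2.Lattice Cfsg.Agent.J2.Refl
  Cfsg.Agent.J2.Group Cfsg.Agent.J2.Stab Cfsg.Agent.J2.SixGens
open Cfsg.Agent.H1.J2Lift Cfsg.Agent.H1.J2Words Cfsg.Agent.H4.JT.Fast Cfsg.Agent.H4.JT.CA

universe u

namespace Fld

/-! ### orders -/

theorem P0 : Wd (ww 0) ^ 1 = 1 := by rw [← Wd_pwr, Wd_eq o0, Wd_nil]
theorem P1 : Wd (ww 1) ^ 2 = 1 := by rw [← Wd_pwr, Wd_eq o1, Wd_nil]
theorem P2 : Wd (ww 2) ^ 4 = 1 := by rw [← Wd_pwr, Wd_eq o2, Wd_nil]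
theorem P3 : Wd (ww 3) ^ 5 = 1 := by rw [← Wd_pwr, Wd_eq o3, Wd_nil]
theorem N3_5 : Wd (ww 3) ^ 1 ≠ 1 := by rw [← Wd_pwr, Wd_eq e3_5]; exact Wd_ne n3_5
theorem P4 : Wd (ww 4) ^ 3 = 1 := by rw [← Wd_pwr, Wd_eq o4, Wd_nil]
theorem N4_3 : Wd (ww 4) ^ 1 ≠ 1 := by rw [← Wd_pwr, Wd_eq e4_3]; exact Wd_ne n4_3
theorem P6 : Wd (ww 6) ^ 3 = 1 := by rw [← Wd_pwr, Wd_eq o6, Wd_nil]
theorem N6_3 : Wd (ww 6) ^ 1 ≠ 1 := by rw [← Wd_pwr, Wd_eq e6_3]; exact Wd_ne n6_3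
theorem P7 : Wd (ww 7) ^ 5 = 1 := by rw [← Wd_pwr, Wd_eq o7, Wd_nil]
theorem N7_5 : Wd (ww 7) ^ 1 ≠ 1 := by rw [← Wd_pwr, Wd_eq e7_5]; exact Wd_ne n7_5
theorem P9 : Wd (ww 9) ^ 6 = 1 := by rw [← Wd_pwr, Wd_eq o9, Wd_nil]
theorem N9_3 : Wd (ww 9) ^ 2 ≠ 1 := by rw [← Wd_pwr, Wd_eq e9_3]; exact Wd_ne n9_3
theorem P11 : Wd (ww 11) ^ 12 = 1 := by rw [← Wd_pwr, Wd_eq o11, Wd_nil]
theorem N11_3 : Wd (ww 11) ^ 4 ≠ 1 := by rw [← Wd_pwr, Wd_eq e11_3]; exact Wd_ne n11_3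
theorem P13 : Wd (ww 13) ^ 15 = 1 := by rw [← Wd_pwr, Wd_eq o13, Wd_nil]
theorem N13_3 : Wd (ww 13) ^ 5 ≠ 1 := by rw [← Wd_pwr, Wd_eq e13_3]; exact Wd_ne n13_3
theorem N13_5 : Wd (ww 13) ^ 3 ≠ 1 := by rw [← Wd_pwr, Wd_eq e13_5]; exact Wd_ne n13_5
theorem P14 : Wd (ww 14) ^ 4 = 1 := by rw [← Wd_pwr, Wd_eq o14, Wd_nil]
theorem P15 : Wd (ww 15) ^ 10 = 1 := by rw [← Wd_pwr, Wd_eq o15, Wd_nil]
theorem N15_5 : Wd (ww 15) ^ 2 ≠ 1 := by rw [← Wd_pwr, Wd_eq e15_5]; exact Wd_ne n15_5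
theorem P16 : Wd (ww 16) ^ 15 = 1 := by rw [← Wd_pwr, Wd_eq o16, Wd_nil]
theorem N16_3 : Wd (ww 16) ^ 5 ≠ 1 := by rw [← Wd_pwr, Wd_eq e16_3]; exact Wd_ne n16_3
theorem N16_5 : Wd (ww 16) ^ 3 ≠ 1 := by rw [← Wd_pwr, Wd_eq e16_5]; exact Wd_ne n16_5
theorem P17 : Wd (ww 17) ^ 10 = 1 := by rw [← Wd_pwr, Wd_eq o17, Wd_nil]
theorem N17_5 : Wd (ww 17) ^ 2 ≠ 1 := by rw [← Wd_pwr, Wd_eq e17_5]; exact Wd_ne n17_5
theorem P18 : Wd (ww 18) ^ 7 = 1 := by rw [← Wd_pwr, Wd_eq o18, Wd_nil]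
theorem N18_7 : Wd (ww 18) ^ 1 ≠ 1 := by rw [← Wd_pwr, Wd_eq e18_7]; exact Wd_ne n18_7
theorem P19 : Wd (ww 19) ^ 10 = 1 := by rw [← Wd_pwr, Wd_eq o19, Wd_nil]
theorem N19_5 : Wd (ww 19) ^ 2 ≠ 1 := by rw [← Wd_pwr, Wd_eq e19_5]; exact Wd_ne n19_5
theorem P20 : Wd (ww 20) ^ 10 = 1 := by rw [← Wd_pwr, Wd_eq o20, Wd_nil]
theorem N20_5 : Wd (ww 20) ^ 2 ≠ 1 := by rw [← Wd_pwr, Wd_eq e20_5]; exact Wd_ne n20_5

theorem m6 {Q : ℕ} (h2 : Q % 2 = 1) (h3 : Q % 3 ≠ 0) : Q % 6 = 1 % 6 ∨ (Q + 1) % 6 = 0 := by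
  have h := Nat.mod_lt Q (show 0 < 6 by norm_num)
  interval_cases hQ : Q % 6 <;> omega

theorem m12 {Q : ℕ} (h2 : Q % 2 = 1) (h3 : Q % 3 ≠ 0) :
    (Q % 12 = 1 % 12 ∨ (Q + 1) % 12 = 0) ∨ (Q % 12 = 5 % 12 ∨ (Q + 5) % 12 = 0) := by
  have h := Nat.mod_lt Q (show 0 < 12 by norm_num)
  interval_cases hQ : Q % 12 <;> omega

theorem m15 {Q : ℕ} (h3 : Q % 3 ≠ 0) (h5 : Q % 5 = 1 ∨ Q % 5 = 4) :
    (Q % 15 = 1 % 15 ∨ (Q + 1) % 15 = 0) ∨ (Q % 15 = 4 % 15 ∨ (Q + 4) % 15 = 0) := by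
  have h := Nat.mod_lt Q (show 0 < 15 by norm_num)
  interval_cases hQ : Q % 15 <;> omega

theorem m7 {Q : ℕ} (h7 : Q % 7 ≠ 0) : (Q % 7 = 1 % 7 ∨ (Q + 1) % 7 = 0) ∨
    (Q % 7 = 3 % 7 ∨ (Q + 3) % 7 = 0) ∨ (Q % 7 = 9 % 7 ∨ (Q + 9) % 7 = 0) := by
  have h := Nat.mod_lt Q (show 0 < 7 by norm_num)
  interval_cases hQ : Q % 7 <;> omega

theorem ne_of_reg {p r N' M : ℕ} (hp : p.Prime) {w : W} (hM : ¬ p ∣ M) (h1 : w ^ M = 1) (h2 : w ^ (r * N') = 1)
    (h3 : w ^ N' ≠ 1) : p ≠ r := by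
  intro h
  subst h
  apply h3
  have h4 : orderOf w ∣ Nat.gcd M (p * N') := Nat.dvd_gcd (orderOf_dvd_of_pow_eq_one h1) (orderOf_dvd_of_pow_eq_one h2)
  rw [Nat.Coprime.gcd_mul_left_cancel_right N' ((Nat.Prime.coprime_iff_not_dvd hp).2 hM)] at h4
  exact orderOf_dvd_iff_pow_eq_one.1 (h4.trans (Nat.gcd_dvd_right _ _))

theorem cr {c L : List ℕ} {r : ℕ} (h : fchk (c ++ L) (pwr r L ++ c) = true) : Wd c * Wd L = Wd L ^ r * Wd c := by
  rw [← Wd_append, Wd_eq h, Wd_append, Wd_pwr]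

section rep

variable {ι : Type} [Fintype ι] [DecidableEq ι] {F : Type u} [Field F] {P : Subgroup (Matrix.GeneralLinearGroup ι F)}

/-- the trace -/
noncomputable def tw (φ : W →* P) (w : W) : F := tr ((φ w : P) : Matrix.GeneralLinearGroup ι F)

variable {φ : W →* P}

theorem tw_conj (c w : W) : tw φ (c * w * c⁻¹) = tw φ w := by
  unfold tw
  rw [map_mul, map_mul, map_inv, Subgroup.coe_mul, Subgroup.coe_mul, Subgroup.coe_inv, tr_conj]

theorem tw_semi {c w w' : W} (h : c * w = w' * c) : tw φ w' = tw φ w := by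
  rw [← tw_conj c w, h, mul_inv_cancel_right]

theorem tw_ng (hng : (((φ ng : P) : Matrix.GeneralLinearGroup ι F) : Matrix ι ι F) = -1) (w : W) :
    tw φ (ng * w) = -tw φ w := by
  unfold tw tr
  rw [map_mul, Subgroup.coe_mul, Units.val_mul, hng, neg_one_mul, Matrix.trace_neg]

theorem zero_of_neg (h2 : (2 : F) ≠ 0) {t : F} (h : t = -t) : t = 0 := by
  have h1 : (2 : F) * t = 0 := by linear_combination h
  exact (mul_eq_zero.1 h1).resolve_left h2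

theorem tw_zero (hng : (((φ ng : P) : Matrix.GeneralLinearGroup ι F) : Matrix ι ι F) = -1) (h2 : (2 : F) ≠ 0)
    {c L : List ℕ} (h : fchkN (c ++ L) (L ++ c) = true) : tw φ (Wd L) = 0 := by
  have h1 : Wd c * Wd L = (ng * Wd L) * Wd c := by
    rw [← Wd_append, FC.WN h, Wd_append, mul_assoc]
  have h3 := tw_semi (φ := φ) h1
  rw [tw_ng hng] at h3
  exact zero_of_neg h2 h3.symm

theorem tw_eA (e : Soc P ≃* J2) (hp : ∀ z, pj P e (φ z) = pr z) (hn : Fintype.card ι ≤ 13) (h2 : (2 : F) ≠ 0)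
    (hφ : (((φ ng : P) : Matrix.GeneralLinearGroup ι F) : Matrix ι ι F) = -1) : tw φ H1.TJ2.eA = 0 := by
  have h3 := H1.EightA.trace_eq_zero h2 (H1.TJ2.rel e hp hφ) (by rw [Module.finrank_fintype_fun_eq_card]; exact hn)
  have h4 : H1.TJ2.E φ wV * H1.TJ2.E φ [tt 1] = H1.TJ2.E φ (wV ++ [tt 1]) := by
    apply LinearMap.ext
    intro x
    rw [H1.TJ2.E_append]; rfl
  change LinearMap.trace F (ι → F) (H1.TJ2.E φ wV * H1.TJ2.E φ [tt 1]) = 0 at h3
  rw [h4] at h3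
  unfold H1.TJ2.E at h3
  rw [Matrix.trace_toLin'_eq] at h3
  exact h3

theorem good_pm (hinv : ∀ w, tw φ w⁻¹ = tw φ w) {w : W} {N Q : ℕ} (h1 : w ^ N = 1)
    (hQ : Q % N = 1 % N ∨ (Q + 1) % N = 0) : tw φ (w ^ Q) = tw φ w := by
  rcases hQ with h | h
  · have h3 : w ^ Q = w ^ 1 := by
      rw [← pow_mod_orderOf w Q, ← pow_mod_orderOf w 1]
      have h4 : orderOf w ∣ N := orderOf_dvd_of_pow_eq_one h1
      have h5 : Q % orderOf w = 1 % orderOf w := (Nat.ModEq.of_dvd h4 h : Q ≡ 1 [MOD orderOf w])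
      rw [h5]
    rw [h3, pow_one]
  · have h3 : w ^ (Q + 1) = 1 := by
      obtain ⟨m, hm⟩ := Nat.dvd_of_mod_eq_zero h
      rw [hm, pow_mul, h1, one_pow]
    have h4 : w ^ Q = w⁻¹ := by
      rw [pow_succ] at h3
      exact eq_inv_of_mul_eq_one_left h3
    rw [h4, hinv]

theorem good_r (hinv : ∀ w, tw φ w⁻¹ = tw φ w) {w c : W} {N Q r : ℕ} (h1 : w ^ N = 1) (hc : c * w = w ^ r * c)
    (hQ : Q % N = r % N ∨ (Q + r) % N = 0) : tw φ (w ^ Q) = tw φ w := by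
  have hr : tw φ (w ^ r) = tw φ w := tw_semi hc
  rcases hQ with h | h
  · have h3 : w ^ Q = w ^ r := by
      rw [← pow_mod_orderOf w Q, ← pow_mod_orderOf w r]
      have h4 : orderOf w ∣ N := orderOf_dvd_of_pow_eq_one h1
      have h5 : Q % orderOf w = r % orderOf w := (Nat.ModEq.of_dvd h4 h : Q ≡ r [MOD orderOf w])
      rw [h5]
    rw [h3, hr]
  · have h3 : w ^ (Q + r) = 1 := by
      obtain ⟨m, hm⟩ := Nat.dvd_of_mod_eq_zero h
      rw [hm, pow_mul, h1, one_pow]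
    have h4 : w ^ Q = (w ^ r)⁻¹ := by
      rw [pow_add] at h3
      exact eq_inv_of_mul_eq_one_left h3
    rw [h4, hinv, hr]

theorem word_good {p Q : ℕ} (hp : p.Prime) (hinv : ∀ w, tw φ w⁻¹ = tw φ w)
    (hng : (((φ ng : P) : Matrix.GeneralLinearGroup ι F) : Matrix ι ι F) = -1) (h2 : (2 : F) ≠ 0)
    (h5 : tw φ (Wd (ww 5)) = 0)
    (q2 : Q % 2 = 1) (q3 : p = 3 ∨ Q % 3 ≠ 0) (q5 : p = 5 ∨ Q % 5 = 1 ∨ Q % 5 = 4) (q7 : p = 7 ∨ Q % 7 ≠ 0)
    {j : ℕ} (hj : j < 21) {M : ℕ} (hM : ¬ p ∣ M) (h1 : Wd (ww j) ^ M = 1) :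
    tw φ (Wd (ww j) ^ Q) = tw φ (Wd (ww j)) ∨ tw φ (Wd (ww j)) = 0 := by
  interval_cases j
  · exact Or.inl (good_pm hinv P0 (by omega))
  · exact Or.inl (good_pm hinv P1 (by omega))
  · exact Or.inl (good_pm hinv P2 (by omega))
  · have r5 : p ≠ 5 := ne_of_reg hp hM h1 (N' := 1) P3 N3_5
    exact Or.inl (good_pm hinv P3 (by omega))
  · have r3 : p ≠ 3 := ne_of_reg hp hM h1 (N' := 1) P4 N4_3
    exact Or.inl (good_pm hinv P4 (by omega))
  · exact Or.inr h5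
  · have r3 : p ≠ 3 := ne_of_reg hp hM h1 (N' := 1) P6 N6_3
    exact Or.inl (good_pm hinv P6 (by omega))
  · have r5 : p ≠ 5 := ne_of_reg hp hM h1 (N' := 1) P7 N7_5
    exact Or.inl (good_pm hinv P7 (by omega))
  · exact Or.inr (tw_zero hng h2 k8)
  · have r3 : p ≠ 3 := ne_of_reg hp hM h1 (N' := 2) P9 N9_3
    exact Or.inl (good_pm hinv P9 (m6 q2 (q3.resolve_left r3)))
  · exact Or.inr (tw_zero hng h2 k10)
  · have r3 : p ≠ 3 := ne_of_reg hp hM h1 (N' := 4) P11 N11_3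
    rcases m12 q2 (q3.resolve_left r3) with hQ | hQ
    · exact Or.inl (good_pm hinv P11 hQ)
    · exact Or.inl (good_r hinv P11 (cr k11) hQ)
  · exact Or.inr (tw_zero hng h2 k12)
  · have r3 : p ≠ 3 := ne_of_reg hp hM h1 (N' := 5) P13 N13_3
    have r5 : p ≠ 5 := ne_of_reg hp hM h1 (N' := 3) P13 N13_5
    rcases m15 (q3.resolve_left r3) (q5.resolve_left r5) with hQ | hQ
    · exact Or.inl (good_pm hinv P13 hQ)
    · exact Or.inl (good_r hinv P13 (cr k13) hQ)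
  · exact Or.inl (good_pm hinv P14 (by omega))
  · have r5 : p ≠ 5 := ne_of_reg hp hM h1 (N' := 2) P15 N15_5
    exact Or.inl (good_pm hinv P15 (by omega))
  · have r3 : p ≠ 3 := ne_of_reg hp hM h1 (N' := 5) P16 N16_3
    have r5 : p ≠ 5 := ne_of_reg hp hM h1 (N' := 3) P16 N16_5
    rcases m15 (q3.resolve_left r3) (q5.resolve_left r5) with hQ | hQ
    · exact Or.inl (good_pm hinv P16 hQ)
    · exact Or.inl (good_r hinv P16 (cr k16) hQ)
  · have r5 : p ≠ 5 := ne_of_reg hp hM h1 (N' := 2) P17 N17_5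
    exact Or.inl (good_pm hinv P17 (by omega))
  · have h9 : Wd (c18 ++ c18) * Wd (ww 18) = Wd (ww 18) ^ 9 * Wd (c18 ++ c18) := by
      have h3 := cr k18
      have h33 : Wd c18 * Wd (ww 18) ^ 3 = Wd (ww 18) ^ 9 * Wd c18 := by
        have : ∀ n : ℕ, Wd c18 * Wd (ww 18) ^ n = (Wd (ww 18) ^ 3) ^ n * Wd c18 := fun n => (SemiconjBy.pow_right h3 n)
        rw [this, ← pow_mul]
      rw [Wd_append, mul_assoc, h3, ← mul_assoc, h33, mul_assoc]
    have r7 : p ≠ 7 := ne_of_reg hp hM h1 (N' := 1) P18 N18_7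
    rcases m7 (q7.resolve_left r7) with hQ | hQ | hQ
    · exact Or.inl (good_pm hinv P18 hQ)
    · exact Or.inl (good_r hinv P18 (cr k18) hQ)
    · exact Or.inl (good_r hinv P18 h9 hQ)
  · have r5 : p ≠ 5 := ne_of_reg hp hM h1 (N' := 2) P19 N19_5
    exact Or.inl (good_pm hinv P19 (by omega))
  · have r5 : p ≠ 5 := ne_of_reg hp hM h1 (N' := 2) P20 N20_5
    exact Or.inl (good_pm hinv P20 (by omega))

/-- **traces** -/
theorem fr_core [Finite F] (hC : Core P) (e : Soc P ≃* J2) (p : ℕ) [hp : Fact p.Prime] [CharP F p] (hp2 : p ≠ 2)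
    (hn : Fintype.card ι ≤ 12) {k : ℕ} (hk : p = 5 ∨ p ^ k % 5 = 1 ∨ p ^ k % 5 = 4) : Fr P (p ^ k) := by
  have h2 : (2 : F) ≠ 0 := by
    intro h
    have h3 : ((2 : ℕ) : F) = 0 := by exact_mod_cast h
    rw [CharP.cast_eq_zero_iff F p] at h3
    exact hp2 ((Nat.prime_dvd_prime_iff_eq hp.out Nat.prime_two).1 h3)
  obtain ⟨-, φ, hs, hpj, hng⟩ := j2_odd hC e h2 hn
  have hsd := H1.TJ2.sd hC e hn
  have hinv : ∀ w, tw φ w⁻¹ = tw φ w := by
    intro w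
    unfold tw
    rw [map_inv, Subgroup.coe_inv]
    exact hsd _ (φ w).2
  have h5 : tw φ (Wd (ww 5)) = 0 := by
    rw [← word_eq (by norm_num : 5 < 21), H1.TJ2.word_five, tw_ng hng,
      tw_eA e hpj (hn.trans (by norm_num)) h2 hng, neg_zero]
  have hodd : p ^ k % 2 = 1 := by
    have h3 : Odd p := hp.out.odd_of_ne_two hp2
    exact Nat.odd_iff.1 h3.pow
  have hnd : ∀ r : ℕ, r.Prime → p = r ∨ p ^ k % r ≠ 0 := by
    intro r hr
    by_cases h : p = r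
    · exact Or.inl h
    · right
      intro h3
      have h4 : r ∣ p := hr.dvd_of_dvd_pow (Nat.dvd_of_mod_eq_zero h3)
      exact h ((Nat.prime_dvd_prime_iff_eq hr hp.out).1 h4).symm
  apply Fr.of_reg p
  intro g hg hreg
  obtain ⟨w0, hw0⟩ := hs ⟨g, hg⟩
  -- the kernel is trivial
  have hker : ∀ w, φ w = 1 → w = 1 := by
    intro w hw
    have h3 : pr w = 1 := by rw [← hpj, hw, map_one]
    rcases mem_center (pr_eq_one.1 h3) with h4 | h4
    · exact h4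
    · exfalso
      rw [h4] at hw
      rw [hw] at hng
      have h6 : (1 : Matrix ι ι F) = -1 := hng
      obtain ⟨i⟩ := hC.nonempty
      have h7 := congrFun (congrFun h6 i) i
      rw [Matrix.neg_apply, Matrix.one_apply_eq] at h7
      exact h2 (by linear_combination h7)
  have hord : w0 ^ orderOf g = 1 := by
    apply hker
    rw [map_pow, hw0]
    apply Subtype.ext
    rw [Subgroup.coe_pow, pow_orderOf_eq_one]
    rfl
  have htg : tr g = tw φ w0 := by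
    unfold tw
    rw [hw0]
  obtain ⟨j, hj, c, s, hsn, hc⟩ := lift w0
  rw [word_eq hj] at hc
  have hM : ¬ p ∣ 2 * orderOf g := by
    intro h
    rcases (Nat.Prime.dvd_mul hp.out).1 h with h | h
    · exact hp2 ((Nat.prime_dvd_prime_iff_eq hp.out Nat.prime_two).1 h)
    · exact hreg h
  have hww : Wd (ww j) ^ (2 * orderOf g) = 1 := by
    have h3 : (s * Wd (ww j)) ^ (2 * orderOf g) = 1 := by
      rw [← hc, conj_pow, mul_comm 2, pow_mul, hord, one_pow, mul_one, mul_inv_cancel]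
    have h4 : s ^ (2 * orderOf g) = 1 := by
      rcases hsn with rfl | rfl
      · exact one_pow _
      · rw [pow_mul, sq, ng_sq, one_pow]
    have h6 : Commute s (Wd (ww j)) := by
      rcases hsn with rfl | rfl
      · exact Commute.one_left _
      · exact (ng_comm _).symm
    rw [h6.mul_pow, h4, one_mul] at h3
    exact h3
  have hgood := word_good hp.out hinv hng h2 h5 hodd (hnd 3 Nat.prime_three) hk (hnd 7 (by norm_num)) hj hM hww
  have hpow : tw φ (Wd (ww j)) ^ p ^ k = tw φ (Wd (ww j)) := by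
    rcases hgood with h | h
    · have h3 : tw φ (Wd (ww j) ^ p ^ k) = tw φ (Wd (ww j)) ^ p ^ k := by
        unfold tw
        rw [map_pow, Subgroup.coe_pow]
        exact tr_pow_char p _ k
      rw [← h3, h]
    · rw [h, zero_pow (pow_ne_zero _ hp.out.ne_zero)]
  have htw : tw φ w0 = tw φ (Wd (ww j)) ∨ tw φ w0 = -tw φ (Wd (ww j)) := by
    rw [← tw_conj c w0, hc]
    rcases hsn with rfl | rfl
    · left; rw [one_mul]
    · right; rw [tw_ng hng]
  rw [htg]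
  rcases htw with h | h
  · rw [h, hpow]
  · rw [h, Odd.neg_pow (Nat.odd_iff.2 hodd), hpow]

/-- the prime field is too small -/
theorem not_fr [Finite F] (hC : Core P) (e : Soc P ≃* J2) (p : ℕ) [hp : Fact p.Prime] [CharP F p] (hp2 : p ≠ 2)
    (hn : Fintype.card ι = 6) (hk : p % 5 = 2 ∨ p % 5 = 3) : ¬ Fr P p := by
  intro hfr
  have h2 : (2 : F) ≠ 0 := by
    intro h
    have h3 : ((2 : ℕ) : F) = 0 := by exact_mod_cast h
    rw [CharP.cast_eq_zero_iff F p] at h3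
    exact hp2 ((Nat.prime_dvd_prime_iff_eq hp.out Nat.prime_two).1 h3)
  obtain ⟨-, φ, hs, hpj, hng⟩ := j2_odd hC e h2 (by omega)
  have hsd := H1.TJ2.sd hC e (by omega)
  have hinv : ∀ w, tw φ w⁻¹ = tw φ w := by
    intro w
    unfold tw
    rw [map_inv, Subgroup.coe_inv]
    exact hsd _ (φ w).2
  let K := AlgebraicClosure F
  have h2K : (2 : K) ≠ 0 := by
    intro h
    apply h2
    apply (algebraMap F K).injective
    rw [map_ofNat, map_zero, h]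
  have h5F : (5 : F) ≠ 0 := by
    intro h
    have h3 : ((5 : ℕ) : F) = 0 := by exact_mod_cast h
    rw [CharP.cast_eq_zero_iff F p] at h3
    have := (Nat.prime_dvd_prime_iff_eq hp.out (by norm_num)).1 h3
    omega
  have h5K : (5 : K) ≠ 0 := by
    intro h
    apply h5F
    apply (algebraMap F K).injective
    rw [map_ofNat, map_zero, h]
  obtain ⟨z, hz⟩ : ∃ z : K, 1 + z + z ^ 2 + z ^ 3 + z ^ 4 = 0 := by
    have h1 : (Polynomial.X ^ 4 + Polynomial.X ^ 3 + Polynomial.X ^ 2 + Polynomial.X + 1 : Polynomial K).degree ≠ 0 := by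
      have : (Polynomial.X ^ 4 + Polynomial.X ^ 3 + Polynomial.X ^ 2 + Polynomial.X + 1 : Polynomial K).degree = 4 := by
        compute_degree!
      rw [this]; norm_num
    obtain ⟨z, hz⟩ := IsAlgClosed.exists_root _ h1
    refine ⟨z, ?_⟩
    have h3 : z ^ 4 + z ^ 3 + z ^ 2 + z + 1 = 0 := by simpa using hz
    linear_combination h3
  have hz1 : z ≠ 1 := by
    intro h
    rw [h] at hz
    apply h5K
    linear_combination hz
  have hz5 : z ^ 5 = 1 := by linear_combination (z - 1) * hz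
  let f : W →* Matrix.GeneralLinearGroup ι F := P.subtype.comp φ
  set w := Wd (ww 3) with hw
  have htr : ∀ w, LinearMap.trace K (ι → K) (rp K f w) = algebraMap F K (tw φ w) := fun w => trace_rp w
  -- the powers have equal traces
  have hfrob : tw φ (w ^ p) = tw φ w := by
    have h3 : tw φ (w ^ p) = tw φ w ^ p := by
      unfold tw
      rw [map_pow, Subgroup.coe_pow]
      have := tr_pow_char p ((φ w : P) : Matrix.GeneralLinearGroup ι F) 1
      rw [pow_one] at this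
      exact this
    rw [h3]
    exact hfr _ (φ w).2
  have h5w : w ^ 5 = 1 := P3
  have hmod : ∀ a b : ℕ, a % 5 = b % 5 → w ^ a = w ^ b := by
    intro a b hab
    conv_lhs => rw [← Nat.div_add_mod a 5, pow_add, pow_mul, h5w, one_pow, one_mul, hab]
    conv_rhs => rw [← Nat.div_add_mod b 5, pow_add, pow_mul, h5w, one_pow, one_mul]
  have hneg : ∀ a b : ℕ, (a + b) % 5 = 0 → tw φ (w ^ a) = tw φ (w ^ b) := by
    intro a b hab
    have h3 : w ^ (a + b) = 1 := (hmod _ 0 hab).trans (pow_zero _)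
    have h4 : w ^ a = (w ^ b)⁻¹ := by
      rw [pow_add] at h3
      exact eq_inv_of_mul_eq_one_left h3
    rw [h4, hinv]
  have e4 : tw φ (w ^ 4) = tw φ w := by
    have := hneg 4 1 rfl
    rwa [pow_one] at this
  have e23 : tw φ (w ^ 2) = tw φ (w ^ 3) := hneg 2 3 rfl
  have e2 : tw φ (w ^ 2) = tw φ w := by
    rcases hk with h | h
    · rw [← hfrob, hmod p 2 h]
    · rw [← hfrob, hmod p 3 h, e23]
  have e3 : tw φ (w ^ 3) = tw φ w := by rw [← e23, e2]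
  -- the inverting element
  obtain ⟨c, hc⟩ := rl_word (j := 3) (by norm_num) (by norm_num)
  rw [word_eq (by norm_num)] at hc
  have hcw : c * w = w ^ 4 * c := by
    have h3 : w⁻¹ = w ^ 4 := by
      rw [inv_eq_iff_mul_eq_one, ← pow_succ', h5w]
    rw [← h3, ← hc, inv_mul_cancel_right]
  have hne : w ≠ 1 := by
    have := N3_5
    rwa [pow_one] at this
  refine five_trace (K := K) (V := ι → K) (Y := rp K f w) (c := rp K f c) (A := rp K f (Wd qa)) (B := rp K f (Wd qb))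
    (t := algebraMap F K (tw φ w)) h2K h5K hz1 hz5 ?_ ?_ ?_ (rho_injective _ _) ?_ (rho_injective _ _)
    (rho_injective _ _) ?_ ?_ ?_ ?_ ?_ ?_ ?_
  · rw [Module.finrank_fintype_fun_eq_card, hn]
  · rw [← map_pow, h5w, map_one]
  · intro h3
    have h4 : f w = 1 := of_rp_eq_one h3
    have h6 : φ w = 1 := Subtype.ext h4
    have h7 : pr w = 1 := by rw [← hpj, h6, map_one]
    rcases mem_center (pr_eq_one.1 h7) with h8 | h8
    · exact hne h8
    · have h9 : w ^ 5 = ng := by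
        have h10 : (ng : W) ^ 2 = 1 := by rw [pow_two, ng_sq]
        rw [h8, show (5 : ℕ) = 2 * 2 + 1 from rfl, pow_succ, pow_mul, h10, one_pow, one_mul]
      rw [h5w] at h9
      exact ng_ne h9.symm
  · rw [← map_mul, hcw, map_mul, map_pow]
  · rw [← map_mul, ← map_mul, hw, ← Wd_append, Wd_eq kqa, Wd_append]
  · rw [← map_mul, ← map_mul, hw, ← Wd_append, Wd_eq kqb, Wd_append]
  · have h3 : Wd qa * Wd qb = ng * (Wd qb * Wd qa) := by
      rw [← Wd_append, FC.WN kab, Wd_append]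
    have h4 : rp K f ng = -1 := rp_of_neg hng
    rw [← map_mul, h3]
    apply LinearMap.ext
    intro x
    rw [rho_mul, h4, map_mul]
    rfl
  · exact htr w
  · rw [← map_pow, htr, e2]
  · rw [← map_pow, htr, e3]
  · rw [← map_pow, htr, e4]

end rep

end Fld

/-- **the field** -/
theorem j2_six_field {F : Type u} [Field F] [Fintype F] {ι : Type} [Fintype ι] [DecidableEq ι]
    {P : Subgroup (Matrix.GeneralLinearGroup ι F)} (hC : Core P) (p : ℕ) [hp : Fact p.Prime] [CharP F p] (hp2 : p ≠ 2)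
    (hn : Fintype.card ι = 6) (hJ : Spor.IsoJ2 (Soc P)) :
    (Fintype.card F = p ∧ (p % 5 = 0 ∨ p % 5 = 1 ∨ p % 5 = 4)) ∨
      (Fintype.card F = p ^ 2 ∧ (p % 5 = 2 ∨ p % 5 = 3)) := by
  obtain ⟨e⟩ := hJ
  by_cases h : p % 5 = 0 ∨ p % 5 = 1 ∨ p % 5 = 4
  · left
    refine ⟨?_, h⟩
    apply hC.card_eq p
    have h1 : Fr P (p ^ 1) := by
      apply Fld.fr_core hC e p hp2 (by omega)
      rw [pow_one]
      rcases h with h | h
      · left
        exact ((Nat.prime_dvd_prime_iff_eq (by norm_num) hp.out).1 (Nat.dvd_of_mod_eq_zero h)).symm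
      · right; exact h
    rwa [pow_one] at h1
  · right
    have h' : p % 5 = 2 ∨ p % 5 = 3 := by omega
    refine ⟨?_, h'⟩
    have h1 : Fr P (p ^ 2) := by
      apply Fld.fr_core hC e p hp2 (by omega)
      right; right
      rw [pow_two, Nat.mul_mod]
      rcases h' with h | h <;> rw [h]
    have h3 := hC.card_le p two_ne_zero h1
    obtain ⟨m, -, hm⟩ := FiniteField.card F p
    rw [hm] at h3 ⊢
    have h4 : (m : ℕ) ≤ 2 := (Nat.pow_le_pow_iff_right hp.out.one_lt).1 h3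
    have h5 : (m : ℕ) ≠ 1 := by
      intro h6
      apply Fld.not_fr hC e p hp2 hn h'
      intro g _
      rw [h6, pow_one] at hm
      have := FiniteField.pow_card (tr g)
      rwa [hm] at this
    have h6 : (m : ℕ) = 2 := by
      have := m.pos
      omega
    rw [h6]

end Cfsg.Agent.H4.JT
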