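import Cfsg.Agent.H4.JT.FrameAlg

/-!
# Frames of reflections in the double cover of the Hall-Janko group

`FD` : relations between elements of a group `G` with a central involution `ng`.
`FD.minus` : an irreducible representation over an algebraically closed field of characteristic not two, with
`ng ↦ -1`, of degree at most 12, in which the reflections commuting with `z` act trivially on the `-1`-eigenspace of
`z`, has degree 6.
-/

set_option autoImplicit false

namespace Cfsg.Agent.H4.JT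

open Module H1.EightA

/-- the relations -/
structure FD {G : Type*} [Group G] (ng z s v x w h g g' y1 y2 : G) (T : Fin 5 → G) : Prop where
  nn : ng * ng = 1
  nc : ∀ a : G, a * ng = ng * a
  zz : z * z = 1
  TT : ∀ i, T i * T i = 1
  zT : ∀ i, z * T i = T i * z
  anti : ∀ i j, i ≠ j → T i * T j = ng * (z * (T j * T i))
  prod : T 0 * T 1 * T 2 * T 3 * T 4 = ng * z
  ss : s * s = 1
  sz : s * z = T 0 * s
  sx : s * x = x * s
  vz : v * z = z * v
  vT : ∀ i, v * T i = T (![1, 0, 3, 2, 4] i) * v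
  vv : v * v = ng
  xz : x * z = z * x
  xT : ∀ i, x * T i = T (![0, 2, 3, 1, 4] i) * x
  x3 : x * x * x = 1
  vx : v * x * v * x = x * x * v
  wg : w * g = g * v
  gz : g * z = z * g
  gT : ∀ i, g * T i = T (![4, 0, 1, 2, 3] i) * g
  xw : x * x = ng * (w * x * w)
  hg : h * g' = g' * v
  gz' : g' * z = z * g'
  gT' : ∀ i, g' * T i = T (![2, 4, 1, 0, 3] i) * g'
  t12 : T 1 * T 2 = x * (x * ((s * h * s) * (x * ((s * h * s) * (x * (x * ((s * h * s) * (x *
    (s * T 1 * s * (s * T 3 * s))))))))))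
  t13 : T 1 * T 3 = x * ((s * h * s) * (x * (x * ((s * h * s) * (x * ((s * h * s) * (x * ((s * h * s) *
    (s * T 4 * s * (s * T 1 * s))))))))))
  ts : T 1 * s * T 1 = s * T 1 * s
  yz : y1 * z = z * y1
  yT : ∀ i, y1 * T i = T (![0, 4, 3, 2, 1] i) * y1
  yz' : y2 * z = z * y2
  yT' : ∀ i, y2 * T i = T (![0, 3, 4, 1, 2] i) * y2
  gen : Subgroup.closure ({ng, z, s, h, x} ∪ Set.range T) = ⊤

variable {G : Type*} [Group G] {ng z s v x w h g g' y1 y2 : G} {T : Fin 5 → G}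

theorem FD.wz (D : FD ng z s v x w h g g' y1 y2 T) : w * z = z * w := by
  have h1 : w = g * v * g⁻¹ := by rw [← D.wg, mul_inv_cancel_right]
  have h2 : g⁻¹ * z = z * g⁻¹ := by rw [inv_mul_eq_iff_eq_mul, ← mul_assoc, D.gz, mul_inv_cancel_right]
  rw [h1, mul_assoc, h2, ← mul_assoc, mul_assoc g, D.vz, ← mul_assoc, D.gz]
  simp only [mul_assoc]

theorem FD.hz (D : FD ng z s v x w h g g' y1 y2 T) : h * z = z * h := by
  have h1 : h = g' * v * g'⁻¹ := by rw [← D.hg, mul_inv_cancel_right]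
  have h2 : g'⁻¹ * z = z * g'⁻¹ := by rw [inv_mul_eq_iff_eq_mul, ← mul_assoc, D.gz', mul_inv_cancel_right]
  rw [h1, mul_assoc, h2, ← mul_assoc, mul_assoc g', D.vz, ← mul_assoc, D.gz']
  simp only [mul_assoc]

theorem FD.hh (D : FD ng z s v x w h g g' y1 y2 T) : h * h = ng := by
  have h1 : h = g' * v * g'⁻¹ := by rw [← D.hg, mul_inv_cancel_right]
  calc h * h = g' * (v * v) * g'⁻¹ := by rw [h1]; group
    _ = ng := by rw [D.vv, D.nc, mul_inv_cancel_right]

section rep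

variable {K : Type*} [Field K] {V : Type*} [AddCommGroup V] [Module K V] (ρ : G →* End K V)

theorem rho_injective (a : G) : Function.Injective (ρ a) := by
  intro u v h
  have h1 : ρ a⁻¹ (ρ a u) = ρ a⁻¹ (ρ a v) := by rw [h]
  rw [← End.mul_apply, ← End.mul_apply, ← map_mul, inv_mul_cancel, map_one] at h1
  exact h1

theorem rho_mul (a b : G) (u : V) : ρ (a * b) u = ρ a (ρ b u) := by rw [map_mul]; rfl

theorem mEt {A : End K V} {u : V} : u ∈ Ei A true ↔ A u = -u := by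
  rw [mem_Ei]; simp [sg]

theorem mEf {A : End K V} {u : V} : u ∈ Ei A false ↔ A u = u := by
  rw [mem_Ei]; simp [sg]

/-- restriction to the fixed space of `z` -/
def rU {z : G} (a : G) (ha : a * z = z * a) : End K (Ei (ρ z) false) :=
  (ρ a).restrict (fun u hu => by
    rw [mEf] at hu ⊢
    rw [← rho_mul, ← ha, rho_mul, hu])

theorem rU_coe {z : G} (a : G) (ha : a * z = z * a) (u : Ei (ρ z) false) : ((rU ρ a ha u : Ei (ρ z) false) : V) =
    ρ a u := rfl

variable [FiniteDimensional K V]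

/-- dimensions -/
theorem FD.dims (D : FD ng z s v x w h g g' y1 y2 T) (h2 : (2 : K) ≠ 0) (hng : ρ ng = -1)
    (hfix : ∀ i u, ρ z u = -u → ρ (T i) u = u) :
    2 * finrank K V = 3 * finrank K (Ei (ρ z) false) ∧ Ei (ρ (T 0)) true ≤ Ei (ρ z) false ∧
      2 * finrank K (Ei (ρ (T 0)) true) = finrank K (Ei (ρ z) false) := by
  have hzz : ∀ u, ρ z (ρ z u) = u := fun u => by rw [← rho_mul, D.zz, map_one]; rfl
  have hTT : ∀ i u, ρ (T i) (ρ (T i) u) = u := fun i u => by rw [← rho_mul, D.TT, map_one]; rfl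
  have s1 := split h2 (⊤ : Submodule K V) (T := ρ z) hzz (fun _ _ => trivial)
  rw [top_inf_eq, top_inf_eq, finrank_top] at s1
  have hle : Ei (ρ (T 0)) true ≤ Ei (ρ z) false := by
    intro u hu
    rw [mEt] at hu
    have h1 : ρ z (u - ρ z u) = -(u - ρ z u) := by rw [map_sub, hzz]; abel
    have h3 := hfix 0 _ h1
    have h4 : ρ (T 0) (ρ z u) = -(ρ z u) := by rw [← rho_mul, ← D.zT, rho_mul, hu, map_neg]
    rw [map_sub, hu, h4] at h3
    rw [mEf]
    have h5 : (2 : K) • (u - ρ z u) = 0 := by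
      rw [two_smul]
      nth_rw 1 [← h3]
      abel
    exact (sub_eq_zero.1 ((smul_eq_zero.1 h5).resolve_left h2)).symm
  have hEq : finrank K (Ei (ρ (T 0)) true) = finrank K (Ei (ρ z) true) := by
    apply le_antisymm
    · apply finrank_le_of_map (ρ s) (rho_injective ρ s)
      intro u hu
      rw [mEt] at hu ⊢
      rw [← rho_mul, show z * s = s * T 0 by
        have := D.sz
        calc z * s = s * (s * z) * s := by rw [← mul_assoc, D.ss, one_mul]
          _ = s * T 0 * (s * s) := by rw [D.sz]; group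
          _ = s * T 0 := by rw [D.ss, mul_one], rho_mul, hu, map_neg]
    · apply finrank_le_of_map (ρ s) (rho_injective ρ s)
      intro u hu
      rw [mEt] at hu ⊢
      rw [← rho_mul, ← D.sz, rho_mul, hu, map_neg]
  have hcomm : ∀ u ∈ Ei (ρ z) false, ρ (T 0) u ∈ Ei (ρ z) false := by
    intro u hu
    rw [mEf] at hu ⊢
    rw [← rho_mul, D.zT, rho_mul, hu]
  have s2 := split h2 (Ei (ρ z) false) (T := ρ (T 0)) (hTT 0) hcomm
  have hmap : ∀ a : Bool, ∀ u ∈ Ei (ρ z) false ⊓ Ei (ρ (T 0)) a, ρ (T 1) u ∈ Ei (ρ z) false ⊓ Ei (ρ (T 0)) (!a) := by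
    rintro a u ⟨h1, h3⟩
    change u ∈ Ei (ρ z) false at h1
    change u ∈ Ei (ρ (T 0)) a at h3
    rw [mEf] at h1
    rw [mem_Ei] at h3
    refine ⟨mEf.2 ?_, mem_Ei.2 ?_⟩
    · rw [← rho_mul, D.zT, rho_mul, h1]
    · rw [← rho_mul, D.anti 0 1 (by decide), rho_mul, rho_mul, rho_mul, hng]
      change -(ρ z (ρ (T 1) (ρ (T 0) u))) = _
      rw [h3, map_smul, map_smul, ← rho_mul, D.zT, rho_mul, h1]
      cases a <;> simp [sg]
  have e1 : finrank K (Ei (ρ z) false ⊓ Ei (ρ (T 0)) false : Submodule K V) ≤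
      finrank K (Ei (ρ z) false ⊓ Ei (ρ (T 0)) true : Submodule K V) :=
    finrank_le_of_map (ρ (T 1)) (rho_injective ρ _) (hmap false)
  have e2 : finrank K (Ei (ρ z) false ⊓ Ei (ρ (T 0)) true : Submodule K V) ≤
      finrank K (Ei (ρ z) false ⊓ Ei (ρ (T 0)) false : Submodule K V) :=
    finrank_le_of_map (ρ (T 1)) (rho_injective ρ _) (hmap true)
  rw [inf_eq_right.2 hle] at e1 e2 s2
  refine ⟨by omega, hle, by omega⟩

/-- the involutions on the fixed space -/
theorem FD.ac (D : FD ng z s v x w h g g' y1 y2 T) (hng : ρ ng = -1) :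
    AC (fun i => rU ρ (z := z) (T i) (D.zT i).symm) where
  sq i := by
    apply LinearMap.ext
    intro u
    apply Subtype.ext
    change ρ (T i) (ρ (T i) u) = u
    rw [← rho_mul, D.TT, map_one]; rfl
  anti i j hij := by
    apply LinearMap.ext
    intro u
    apply Subtype.ext
    change ρ (T i) (ρ (T j) u) = -(ρ (T j) (ρ (T i) u))
    have hu : ρ z u = u := mEf.1 u.2
    rw [← rho_mul, D.anti i j hij, rho_mul, hng]
    change -(ρ (z * (T j * T i)) u) = _
    rw [show z * (T j * T i) = T j * (T i * z) by rw [← mul_assoc, D.zT, mul_assoc, D.zT], rho_mul, rho_mul, hu]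

/-- the formula for the conjugates of `v` -/
theorem FD.v_eq (D : FD ng z s v x w h g g' y1 y2 T) (h2 : (2 : K) ≠ 0) (hng : ρ ng = -1)
    (hU : finrank K (Ei (ρ z) false) ≤ 8) :
    rU ρ v D.vz = (2 : K)⁻¹ • ((rU ρ (T 0) (D.zT 0).symm - rU ρ (T 1) (D.zT 1).symm) *
      (rU ρ (T 2) (D.zT 2).symm - rU ρ (T 3) (D.zT 3).symm)) := by
  refine clifford_eq h2 hU (D.ac ρ hng) (v := rU ρ v D.vz) (x := rU ρ x D.xz) ?_ ?_ ?_ ?_ ?_
  · apply LinearMap.ext
    intro u
    apply Subtype.ext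
    change ρ v (ρ v u) = -(u : V)
    rw [← rho_mul, D.vv, hng]; rfl
  · intro i
    apply LinearMap.ext
    intro u
    apply Subtype.ext
    change ρ v (ρ (T i) u) = ρ (T (![1, 0, 3, 2, 4] i)) (ρ v u)
    rw [← rho_mul, D.vT, rho_mul]
  · intro i
    apply LinearMap.ext
    intro u
    apply Subtype.ext
    change ρ x (ρ (T i) u) = ρ (T (![0, 2, 3, 1, 4] i)) (ρ x u)
    rw [← rho_mul, D.xT, rho_mul]
  · apply LinearMap.ext
    intro u
    apply Subtype.ext
    change ρ x (ρ x (ρ x u)) = u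
    rw [← rho_mul, ← rho_mul, D.x3, map_one]; rfl
  · apply LinearMap.ext
    intro u
    apply Subtype.ext
    change ρ v (ρ x (ρ v (ρ x u))) = ρ x (ρ x (ρ v u))
    rw [← rho_mul, ← rho_mul, ← rho_mul, D.vx, rho_mul, rho_mul]

/-- the conjugate of `v` by `a` -/
theorem FD.conj_eq (D : FD ng z s v x w h g g' y1 y2 T) (h2 : (2 : K) ≠ 0) (hng : ρ ng = -1)
    (hU : finrank K (Ei (ρ z) false) ≤ 8) {a b : G} (hab : b * a = a * v) (haz : a * z = z * a) {π : Fin 5 → Fin 5}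
    (haT : ∀ i, a * T i = T (π i) * a) {u : V} (hu : ρ z u = u) :
    ρ b u = (2 : K)⁻¹ • (ρ (T (π 0)) (ρ (T (π 2)) u - ρ (T (π 3)) u) - ρ (T (π 1)) (ρ (T (π 2)) u - ρ (T (π 3)) u)) := by
  have haz' : z * a⁻¹ = a⁻¹ * z := by
    rw [eq_inv_mul_iff_mul_eq, ← mul_assoc, haz, mul_inv_cancel_right]
  have hu' : ρ z (ρ a⁻¹ u) = ρ a⁻¹ u := by rw [← rho_mul, haz', rho_mul, hu]
  have h1 := congrArg Subtype.val (DFunLike.congr_fun (D.v_eq ρ h2 hng hU) ⟨ρ a⁻¹ u, mEf.2 hu'⟩)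
  have h3 : ρ v (ρ a⁻¹ u) = (2 : K)⁻¹ • (ρ (T 0) (ρ (T 2) (ρ a⁻¹ u) - ρ (T 3) (ρ a⁻¹ u)) -
      ρ (T 1) (ρ (T 2) (ρ a⁻¹ u) - ρ (T 3) (ρ a⁻¹ u))) := h1
  have h4 : ρ b u = ρ a (ρ v (ρ a⁻¹ u)) := by
    rw [← rho_mul, ← rho_mul, ← hab, mul_inv_cancel_right]
  have h5 : ∀ i j, ρ a (ρ (T i) (ρ (T j) (ρ a⁻¹ u))) = ρ (T (π i)) (ρ (T (π j)) u) := by
    intro i j
    rw [← rho_mul ρ a, haT, rho_mul, ← rho_mul ρ a, haT, rho_mul, ← rho_mul ρ a a⁻¹, mul_inv_cancel, map_one]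
    rfl
  rw [h4, h3, map_smul, map_sub, map_sub, map_sub, map_sub, map_sub, h5, h5, h5, h5, map_sub, map_sub]

/-- `x² + x + 1 = 0` -/
theorem FD.quad (D : FD ng z s v x w h g g' y1 y2 T) (h2 : (2 : K) ≠ 0) (hng : ρ ng = -1)
    (hfix : ∀ i u, ρ z u = -u → ρ (T i) u = u) (hU : finrank K (Ei (ρ z) false) ≤ 8) (u : V) :
    ρ x (ρ x u) = -(ρ x u) - u := by
  have hUx : ∀ u : V, ρ z u = u → ρ x (ρ x u) + ρ x u + u = 0 := by
    intro u hu
    have hw : rU ρ w D.wz = (2 : K)⁻¹ • ((rU ρ (T 4) (D.zT 4).symm - rU ρ (T 0) (D.zT 0).symm) *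
        (rU ρ (T 1) (D.zT 1).symm - rU ρ (T 2) (D.zT 2).symm)) := by
      apply LinearMap.ext
      intro u
      apply Subtype.ext
      exact D.conj_eq ρ h2 hng hU D.wg D.gz D.gT (mEf.1 u.2)
    have h1 := x_quad h2 (D.ac ρ hng) (x := rU ρ x D.xz) (w := rU ρ w D.wz) hw (by
      intro i
      apply LinearMap.ext
      intro u
      apply Subtype.ext
      change ρ x (ρ (T i) u) = ρ (T (![0, 2, 3, 1, 4] i)) (ρ x u)
      rw [← rho_mul, D.xT, rho_mul]) (by
      apply LinearMap.ext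
      intro u
      apply Subtype.ext
      change ρ x (ρ x (ρ x u)) = u
      rw [← rho_mul, ← rho_mul, D.x3, map_one]; rfl) (by
      apply LinearMap.ext
      intro u
      apply Subtype.ext
      change ρ x (ρ x u) = -(ρ w (ρ x (ρ w u)))
      rw [← rho_mul, D.xw, rho_mul, hng, rho_mul, rho_mul]; rfl)
    exact congrArg Subtype.val (DFunLike.congr_fun h1 ⟨u, mEf.2 hu⟩)
  have hzz : ∀ u, ρ z (ρ z u) = u := fun u => by rw [← rho_mul, D.zz, map_one]; rfl
  obtain ⟨-, hle, -⟩ := D.dims ρ h2 hng hfix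
  have hmin : ∀ u : V, ρ z u = -u → ρ x (ρ x u) + ρ x u + u = 0 := by
    intro u hu
    have h1 : ρ (T 0) (ρ s u) = -(ρ s u) := by rw [← rho_mul, ← D.sz, rho_mul, hu, map_neg]
    have h3 := hUx (ρ s u) (mEf.1 (hle (mEt.2 h1)))
    have hsx : ∀ u, ρ x (ρ s u) = ρ s (ρ x u) := fun u => by rw [← rho_mul, ← D.sx, rho_mul]
    rw [hsx, hsx, ← map_add, ← map_add] at h3
    exact (map_eq_zero_iff _ (rho_injective ρ s)).1 h3
  have h3 := hUx (u + ρ z u) (by rw [map_add, hzz, add_comm])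
  have h4 := hmin (u - ρ z u) (by rw [map_sub, hzz]; abel)
  have h5 : (2 : K) • (ρ x (ρ x u) + ρ x u + u) = 0 := by
    have : (2 : K) • (ρ x (ρ x u) + ρ x u + u) = (ρ x (ρ x (u + ρ z u)) + ρ x (u + ρ z u) + (u + ρ z u)) +
        (ρ x (ρ x (u - ρ z u)) + ρ x (u - ρ z u) + (u - ρ z u)) := by
      simp only [map_add, map_sub]
      rw [two_smul]
      abel
    rw [this, h3, h4, add_zero]
  have h6 := (smul_eq_zero.1 h5).resolve_left h2
  rw [add_assoc, add_eq_zero_iff_eq_neg] at h6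
  rw [h6]; abel

end rep

end Cfsg.Agent.H4.JT
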