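import Cfsg.Agent.H1.EightA

/-!
# Anticommuting involutions

`AC e` : five anticommuting involutions `e i` of an algebra. `clifford_eq` : on a space of dimension at most 8, an
automorphism `v` with `v² = -1` inducing the permutation `(0 1)(2 3)` of the `e i`, together with an automorphism
`x` of order three inducing `(1 2 3)`, is `½ (e 0 - e 1) (e 2 - e 3)`. `x_quad` : consequences for `x`.
-/

set_option autoImplicit false

namespace Cfsg.Agent.H4.JT

open Module H1.EightA

/-- anticommuting involutions -/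
structure AC {R : Type*} [Ring R] (e : Fin 5 → R) : Prop where
  sq : ∀ i, e i * e i = 1
  anti : ∀ i j, i ≠ j → e i * e j = -(e j * e i)

namespace AC

variable {R : Type*} [Ring R] {e : Fin 5 → R} (H : AC e)
include H

theorem dd {i j : Fin 5} (h : i ≠ j) : (e i - e j) * (e i - e j) = 2 := by
  have h1 := H.anti i j h
  have h2 : (e i - e j) * (e i - e j) = e i * e i - e i * e j - e j * e i + e j * e j := by noncomm_ring
  rw [h2, h1, H.sq, H.sq, ← one_add_one_eq_two]
  abel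

theorem dk {i j k : Fin 5} (hi : i ≠ k) (hj : j ≠ k) : (e i - e j) * e k = -(e k * (e i - e j)) := by
  rw [sub_mul, H.anti i k hi, H.anti j k hj]
  noncomm_ring

theorem di {i j : Fin 5} (h : i ≠ j) : (e i - e j) * e i = -(e j * (e i - e j)) := by
  rw [sub_mul, H.sq, mul_sub, H.sq]
  noncomm_ring

theorem dj {i j : Fin 5} (h : i ≠ j) : (e i - e j) * e j = -(e i * (e i - e j)) := by
  rw [sub_mul, H.sq, mul_sub, H.sq]
  noncomm_ring

theorem ddis {i j k l : Fin 5} (h1 : i ≠ k) (h2 : i ≠ l) (h3 : j ≠ k) (h4 : j ≠ l) :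
    (e i - e j) * (e k - e l) = -((e k - e l) * (e i - e j)) := by
  rw [mul_sub, H.dk h1 h3, H.dk h2 h4]
  noncomm_ring

/-- `c = (e i - e j) (e k - e l)` -/
theorem cc {i j k l : Fin 5} (hij : i ≠ j) (hkl : k ≠ l) (h1 : i ≠ k) (h2 : i ≠ l) (h3 : j ≠ k) (h4 : j ≠ l) :
    (e i - e j) * (e k - e l) * ((e i - e j) * (e k - e l)) = -4 := by
  have h5 : (e i - e j) * (e k - e l) * ((e i - e j) * (e k - e l)) =
      -(((e i - e j) * (e i - e j)) * ((e k - e l) * (e k - e l))) := by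
    rw [mul_assoc, ← mul_assoc (e k - e l), H.ddis h1.symm h3.symm h2.symm h4.symm]
    noncomm_ring
  rw [h5, H.dd hij, H.dd hkl]
  norm_num

/-- action of `c` on the involutions -/
theorem ci {i j k l : Fin 5} (hij : i ≠ j) (h1 : i ≠ k) (h2 : i ≠ l) :
    (e i - e j) * (e k - e l) * e i = e j * ((e i - e j) * (e k - e l)) := by
  rw [mul_assoc, H.dk h1.symm h2.symm, mul_neg, ← mul_assoc, H.di hij]
  noncomm_ring

theorem cj {i j k l : Fin 5} (hij : i ≠ j) (h1 : j ≠ k) (h2 : j ≠ l) :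
    (e i - e j) * (e k - e l) * e j = e i * ((e i - e j) * (e k - e l)) := by
  rw [mul_assoc, H.dk h1.symm h2.symm, mul_neg, ← mul_assoc, H.dj hij]
  noncomm_ring

theorem ck {i j k l : Fin 5} (hkl : k ≠ l) (h1 : i ≠ l) (h2 : j ≠ l) :
    (e i - e j) * (e k - e l) * e k = e l * ((e i - e j) * (e k - e l)) := by
  rw [mul_assoc, H.di hkl, mul_neg, ← mul_assoc, H.dk h1 h2]
  noncomm_ring

theorem cl {i j k l : Fin 5} (hkl : k ≠ l) (h1 : i ≠ k) (h2 : j ≠ k) :
    (e i - e j) * (e k - e l) * e l = e k * ((e i - e j) * (e k - e l)) := by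
  rw [mul_assoc, H.dj hkl, mul_neg, ← mul_assoc, H.dk h1 h2]
  noncomm_ring

theorem cm {i j k l m : Fin 5} (h1 : i ≠ m) (h2 : j ≠ m) (h3 : k ≠ m) (h4 : l ≠ m) :
    (e i - e j) * (e k - e l) * e m = e m * ((e i - e j) * (e k - e l)) := by
  rw [mul_assoc, H.dk h3 h4, mul_neg, ← mul_assoc, H.dk h1 h2]
  noncomm_ring

omit H in
theorem cprod {x0 x1 x2 x3 : R} (s0 : x0 * x0 = 1) (s1 : x1 * x1 = 1) (s2 : x2 * x2 = 1) (s3 : x3 * x3 = 1)
    (a10 : x1 * x0 = -(x0 * x1)) (a20 : x2 * x0 = -(x0 * x2)) (a30 : x3 * x0 = -(x0 * x3))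
    (a21 : x2 * x1 = -(x1 * x2)) (a31 : x3 * x1 = -(x1 * x3)) (a32 : x3 * x2 = -(x2 * x3)) :
    (x0 - x1) * (x2 - x3) * ((x0 - x2) * (x3 - x1)) = 2 * ((x0 - x3) * (x1 - x2)) ∧
    (x0 - x2) * (x3 - x1) * ((x0 - x1) * (x2 - x3)) = -(2 * ((x0 - x3) * (x1 - x2))) := by
  have b10 : ∀ t, x1 * (x0 * t) = -(x0 * (x1 * t)) := fun t => by rw [← mul_assoc, a10]; noncomm_ring
  have b20 : ∀ t, x2 * (x0 * t) = -(x0 * (x2 * t)) := fun t => by rw [← mul_assoc, a20]; noncomm_ring
  have b30 : ∀ t, x3 * (x0 * t) = -(x0 * (x3 * t)) := fun t => by rw [← mul_assoc, a30]; noncomm_ring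
  have b21 : ∀ t, x2 * (x1 * t) = -(x1 * (x2 * t)) := fun t => by rw [← mul_assoc, a21]; noncomm_ring
  have b31 : ∀ t, x3 * (x1 * t) = -(x1 * (x3 * t)) := fun t => by rw [← mul_assoc, a31]; noncomm_ring
  have b32 : ∀ t, x3 * (x2 * t) = -(x2 * (x3 * t)) := fun t => by rw [← mul_assoc, a32]; noncomm_ring
  have t0 : ∀ t, x0 * (x0 * t) = t := fun t => by rw [← mul_assoc, s0, one_mul]
  have t1 : ∀ t, x1 * (x1 * t) = t := fun t => by rw [← mul_assoc, s1, one_mul]
  have t2 : ∀ t, x2 * (x2 * t) = t := fun t => by rw [← mul_assoc, s2, one_mul]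
  have t3 : ∀ t, x3 * (x3 * t) = t := fun t => by rw [← mul_assoc, s3, one_mul]
  constructor <;>
  · simp only [mul_sub, sub_mul, mul_assoc, a10, a20, a30, a21, a31, a32, b10, b20, b30, b21, b31, b32, s0, s1, s2,
      s3, t0, t1, t2, t3, mul_neg, neg_mul, mul_one, neg_neg, two_mul]
    abel

/-- the product of two -/
theorem c12 : (e 0 - e 1) * (e 2 - e 3) * ((e 0 - e 2) * (e 3 - e 1)) = 2 * ((e 0 - e 3) * (e 1 - e 2)) :=
  (cprod (H.sq 0) (H.sq 1) (H.sq 2) (H.sq 3) (H.anti 1 0 (by decide)) (H.anti 2 0 (by decide))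
    (H.anti 3 0 (by decide)) (H.anti 2 1 (by decide)) (H.anti 3 1 (by decide)) (H.anti 3 2 (by decide))).1

theorem c21 : (e 0 - e 2) * (e 3 - e 1) * ((e 0 - e 1) * (e 2 - e 3)) = -(2 * ((e 0 - e 3) * (e 1 - e 2))) :=
  (cprod (H.sq 0) (H.sq 1) (H.sq 2) (H.sq 3) (H.anti 1 0 (by decide)) (H.anti 2 0 (by decide))
    (H.anti 3 0 (by decide)) (H.anti 2 1 (by decide)) (H.anti 3 1 (by decide)) (H.anti 3 2 (by decide))).2

omit H in
/-- conjugation -/
theorem conj {v : R} {π : Fin 5 → Fin 5} (hv : ∀ i, v * e i = e (π i) * v) (i j k l : Fin 5) :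
    v * ((e i - e j) * (e k - e l)) = (e (π i) - e (π j)) * (e (π k) - e (π l)) * v := by
  have h1 : ∀ i j, v * (e i - e j) = (e (π i) - e (π j)) * v := by
    intro i j
    rw [mul_sub, hv, hv, sub_mul]
  rw [← mul_assoc, h1, mul_assoc, h1, mul_assoc]

end AC

section space

variable {K : Type*} [Field K] {U : Type*} [AddCommGroup U] [Module K U] [FiniteDimensional K U]

/-- a non-zero invariant subspace has dimension at least four -/
theorem four_le_inv (h2 : (2 : K) ≠ 0) {e : Fin 5 → End K U} (H : AC e) {S : Submodule K U} (hS : S ≠ ⊥)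
    (hinv : ∀ i, ∀ u ∈ S, e i u ∈ S) : 4 ≤ finrank K S := by
  have hee : ∀ i u, e i (e i u) = u := fun i u => DFunLike.congr_fun (H.sq i) u
  have hanti : ∀ i j, i ≠ j → ∀ u, e i (e j u) = -(e j (e i u)) := fun i j h u => DFunLike.congr_fun (H.anti i j h) u
  have hinj : ∀ i, Function.Injective (e i) := fun i u v h => by
    rw [← hee i u, h, hee]
  have h1 := split h2 S (T := e 0) (hee 0) (hinv 0)
  have h01 : ∀ a : Bool, ∀ u ∈ S ⊓ Ei (e 0) a, e 1 u ∈ S ⊓ Ei (e 0) (!a) := by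
    rintro a u ⟨hu, hua⟩
    refine ⟨hinv 1 u hu, ?_⟩
    change u ∈ Ei (e 0) a at hua
    change e 1 u ∈ Ei (e 0) (!a)
    rw [mem_Ei] at hua ⊢
    rw [hanti 0 1 (by decide), hua, map_smul]
    cases a <;> simp [sg]
  have e1 : finrank K (S ⊓ Ei (e 0) false : Submodule K U) ≤ finrank K (S ⊓ Ei (e 0) true : Submodule K U) :=
    finrank_le_of_map (e 1) (hinj 1) (h01 false)
  have e2 : finrank K (S ⊓ Ei (e 0) true : Submodule K U) ≤ finrank K (S ⊓ Ei (e 0) false : Submodule K U) :=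
    finrank_le_of_map (e 1) (hinj 1) (h01 true)
  have hev : Even (finrank K (S ⊓ Ei (e 0) false : Submodule K U)) := by
    refine even_of_anti h2 _ (A := e 1 * e 2) (B := e 2 * e 3) ((hinj 1).comp (hinj 2)) ((hinj 2).comp (hinj 3))
      ?_ ?_ ?_
    · rintro u ⟨hu, hua⟩
      change u ∈ Ei (e 0) false at hua
      rw [mem_Ei] at hua
      refine ⟨hinv 1 _ (hinv 2 u hu), ?_⟩
      change e 1 (e 2 u) ∈ Ei (e 0) false
      rw [mem_Ei, hanti 0 1 (by decide), hanti 0 2 (by decide), hua, map_neg, map_smul, map_smul, neg_neg]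
    · rintro u ⟨hu, hua⟩
      change u ∈ Ei (e 0) false at hua
      rw [mem_Ei] at hua
      refine ⟨hinv 2 _ (hinv 3 u hu), ?_⟩
      change e 2 (e 3 u) ∈ Ei (e 0) false
      rw [mem_Ei, hanti 0 2 (by decide), hanti 0 3 (by decide), hua, map_neg, map_smul, map_smul, neg_neg]
    · intro u _
      change e 1 (e 2 (e 2 (e 3 u))) = -(e 2 (e 3 (e 1 (e 2 u))))
      rw [hee 2, hanti 3 1 (by decide), map_neg, hanti 2 1 (by decide), hanti 3 2 (by decide) u, map_neg, map_neg,
        hee 2, neg_neg, neg_neg]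
  obtain ⟨k, hk⟩ := hev
  have h0 : finrank K S ≠ 0 := fun h => hS (Submodule.finrank_eq_zero.1 h)
  omega

/-- the case of small dimension -/
theorem clifford_eq (h2 : (2 : K) ≠ 0) (hU : finrank K U ≤ 8) {e : Fin 5 → End K U} (H : AC e) {v x : End K U}
    (hv : v * v = -1) (hvT : ∀ i, v * e i = e (![1, 0, 3, 2, 4] i) * v)
    (hxT : ∀ i, x * e i = e (![0, 2, 3, 1, 4] i) * x) (x3 : x * x * x = 1) (hvx : v * x * v * x = x * x * v) :
    v = (2 : K)⁻¹ • ((e 0 - e 1) * (e 2 - e 3)) := by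
  -- the conjugates
  obtain ⟨v2, hv2⟩ : ∃ t : End K U, t = x * v * (x * x) := ⟨_, rfl⟩
  obtain ⟨v3, hv3⟩ : ∃ t : End K U, t = x * x * v * x := ⟨_, rfl⟩
  have x3' : x * (x * x) = 1 := by rw [← mul_assoc]; exact x3
  have hv2x : v2 * x = x * v := by rw [hv2, mul_assoc, x3, mul_one]
  have hv3x : v3 * x = x * v2 := by rw [hv2, hv3]; simp only [mul_assoc]
  have hvv2 : v * v2 = v3 := by
    have : v * v2 = v * x * v * x * x := by rw [hv2]; simp only [mul_assoc]
    rw [this, hvx, hv3]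
  have hv22 : v2 * v2 = -1 := by
    have : v2 * v2 = x * v * (x * (x * x)) * v * (x * x) := by rw [hv2]; simp only [mul_assoc]
    rw [this, x3', mul_one, mul_assoc x v v, hv, mul_neg, mul_one, neg_mul, x3']
  have hv33 : v3 * v3 = -1 := by
    have : v3 * v3 = x * x * v * (x * (x * x)) * v * x := by rw [hv3]; simp only [mul_assoc]
    rw [this, x3', mul_one, mul_assoc (x * x) v v, hv, mul_neg, mul_one, neg_mul, x3]
  have hv2v : v2 * v = -v3 := by
    -- from `(v v2)^2 = -1`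
    have h1 : v * v2 * (v * v2) = -1 := by rw [hvv2]; exact hv33
    have h2' : v * (v * v2 * (v * v2)) * v2 = v2 * v := by
      calc v * (v * v2 * (v * v2)) * v2 = (v * v) * (v2 * v) * (v2 * v2) := by simp only [mul_assoc]
        _ = v2 * v := by rw [hv, hv22]; noncomm_ring
    rw [← h2', h1, mul_neg, mul_one, neg_mul, hvv2]
  -- conjugation
  have hv2T : ∀ i, v2 * e i = e (![2, 3, 0, 1, 4] i) * v2 := by
    have hxx : ∀ i, (x * x) * e i = e (![0, 3, 1, 2, 4] i) * (x * x) := by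
      intro i
      rw [mul_assoc, hxT, ← mul_assoc, hxT, mul_assoc]
      congr 2
      fin_cases i <;> rfl
    intro i
    rw [hv2, mul_assoc, mul_assoc, hxx, ← mul_assoc v, hvT, mul_assoc, ← mul_assoc x, hxT, mul_assoc]
    congr 1
    fin_cases i <;> rfl
  obtain ⟨c1, hc1⟩ : ∃ t : End K U, t = (e 0 - e 1) * (e 2 - e 3) := ⟨_, rfl⟩
  obtain ⟨c2, hc2⟩ : ∃ t : End K U, t = (e 0 - e 2) * (e 3 - e 1) := ⟨_, rfl⟩
  obtain ⟨c3, hc3⟩ : ∃ t : End K U, t = (e 0 - e 3) * (e 1 - e 2) := ⟨_, rfl⟩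
  have xc1 : x * c1 = c2 * x := by rw [hc1, hc2]; exact AC.conj hxT 0 1 2 3
  have xc2 : x * c2 = c3 * x := by rw [hc2, hc3]; exact AC.conj hxT 0 2 3 1
  have vc1 : v * c1 = c1 * v := by
    have h1 : v * c1 = (e 1 - e 0) * (e 3 - e 2) * v := by rw [hc1]; exact AC.conj hvT 0 1 2 3
    rw [h1, hc1]
    noncomm_ring
  have vc2 : v * c2 = -(c2 * v) := by
    have h1 : v * c2 = (e 1 - e 3) * (e 2 - e 0) * v := by rw [hc2]; exact AC.conj hvT 0 2 3 1
    have h3 := H.ddis (i := 0) (j := 2) (k := 3) (l := 1) (by decide) (by decide) (by decide) (by decide)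
    rw [h1, hc2, h3]
    noncomm_ring
  have v2c1 : v2 * c1 = -(c1 * v2) := by
    have h1 : v2 * c1 = (e 2 - e 3) * (e 0 - e 1) * v2 := by rw [hc1]; exact AC.conj hv2T 0 1 2 3
    have h3 := H.ddis (i := 0) (j := 1) (k := 2) (l := 3) (by decide) (by decide) (by decide) (by decide)
    rw [h1, hc1, h3]
    noncomm_ring
  have v2c2 : v2 * c2 = c2 * v2 := by
    have h1 : v2 * c2 = (e 2 - e 0) * (e 1 - e 3) * v2 := by rw [hc2]; exact AC.conj hv2T 0 2 3 1
    rw [h1, hc2]
    noncomm_ring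
  have c11 : c1 * c1 = -4 := by
    rw [hc1]; exact H.cc (by decide) (by decide) (by decide) (by decide) (by decide) (by decide)
  have c22 : c2 * c2 = -4 := by
    rw [hc2]; exact H.cc (by decide) (by decide) (by decide) (by decide) (by decide) (by decide)
  have c12 : c1 * c2 = 2 * c3 := by rw [hc1, hc2, hc3]; exact H.c12
  have c21 : c2 * c1 = -(2 * c3) := by rw [hc1, hc2, hc3]; exact H.c21
  -- the operators
  have h4 : (2 : K)⁻¹ * (2 : K)⁻¹ * 4 = 1 := by
    have : (4 : K) = 2 * 2 := by norm_num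
    rw [this, mul_mul_mul_comm, inv_mul_cancel₀ h2, one_mul]
  obtain ⟨D1, hD1⟩ : ∃ t : End K U, t = -((2 : K)⁻¹ • (c1 * v)) := ⟨_, rfl⟩
  obtain ⟨D2, hD2⟩ : ∃ t : End K U, t = -((2 : K)⁻¹ • (c2 * v2)) := ⟨_, rfl⟩
  obtain ⟨D3, hD3⟩ : ∃ t : End K U, t = -((2 : K)⁻¹ • (c3 * v3)) := ⟨_, rfl⟩
  have four : (4 : End K U) = (4 : K) • 1 := by
    rw [← Algebra.algebraMap_eq_smul_one]; exact (map_ofNat (algebraMap K (End K U)) 4).symm
  have two : (2 : End K U) = (2 : K) • 1 := by
    rw [← Algebra.algebraMap_eq_smul_one]; exact (map_ofNat (algebraMap K (End K U)) 2).symm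
  have hD11 : D1 * D1 = 1 := by
    have : D1 * D1 = ((2 : K)⁻¹ * (2 : K)⁻¹) • (c1 * (v * c1) * v) := by
      rw [hD1, neg_mul_neg, smul_mul_smul_comm]
      congr 1
    rw [this, vc1, show c1 * (c1 * v) * v = c1 * c1 * (v * v) by simp only [mul_assoc], c11, hv, neg_mul_neg, mul_one,
      four, smul_smul, h4, one_smul]
  have hD22 : D2 * D2 = 1 := by
    have : D2 * D2 = ((2 : K)⁻¹ * (2 : K)⁻¹) • (c2 * (v2 * c2) * v2) := by
      rw [hD2, neg_mul_neg, smul_mul_smul_comm]
      congr 1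
    rw [this, v2c2, show c2 * (c2 * v2) * v2 = c2 * c2 * (v2 * v2) by simp only [mul_assoc], c22, hv22, neg_mul_neg,
      mul_one, four, smul_smul, h4, one_smul]
  have h22 : (2 : K)⁻¹ * (2 : K)⁻¹ * 2 = (2 : K)⁻¹ := by rw [mul_assoc, inv_mul_cancel₀ h2, mul_one]
  have hD12 : D1 * D2 = D3 := by
    have : D1 * D2 = ((2 : K)⁻¹ * (2 : K)⁻¹) • (c1 * (v * c2) * v2) := by
      rw [hD1, hD2, neg_mul_neg, smul_mul_smul_comm]
      congr 1
    rw [this, vc2, show c1 * -(c2 * v) * v2 = -((c1 * c2) * (v * v2)) by noncomm_ring, c12, hvv2, two, smul_mul_assoc,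
      one_mul, smul_mul_assoc, smul_neg, smul_smul, h22, hD3]
  have hD21 : D2 * D1 = D3 := by
    have : D2 * D1 = ((2 : K)⁻¹ * (2 : K)⁻¹) • (c2 * (v2 * c1) * v) := by
      rw [hD1, hD2, neg_mul_neg, smul_mul_smul_comm]
      congr 1
    rw [this, v2c1, show c2 * -(c1 * v2) * v = -((c2 * c1) * (v2 * v)) by noncomm_ring, c21, hv2v, neg_mul_neg, two,
      smul_mul_assoc, one_mul, smul_mul_assoc, smul_neg, smul_smul, h22, hD3]
  have hxD1 : x * D1 = D2 * x := by
    rw [hD1, hD2, mul_neg, neg_mul, mul_smul_comm, smul_mul_assoc, ← mul_assoc, xc1, mul_assoc, mul_assoc, hv2x]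
  have hxD2 : x * D2 = D3 * x := by
    rw [hD2, hD3, mul_neg, neg_mul, mul_smul_comm, smul_mul_assoc, ← mul_assoc, xc2, mul_assoc, mul_assoc, hv3x]
  have hD1e : ∀ i, D1 * e i = e i * D1 := by
    intro i
    have h1 : ∀ i, c1 * e (![1, 0, 3, 2, 4] i) = e i * c1 := by
      rw [hc1]
      intro i
      fin_cases i
      · exact H.cj (by decide) (by decide) (by decide)
      · exact H.ci (by decide) (by decide) (by decide)
      · exact H.cl (by decide) (by decide) (by decide)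
      · exact H.ck (by decide) (by decide) (by decide)
      · exact H.cm (by decide) (by decide) (by decide) (by decide)
    rw [hD1, neg_mul, smul_mul_assoc, mul_assoc, hvT, ← mul_assoc, h1, mul_assoc, mul_neg, mul_smul_comm]
  have hD2e : ∀ i, D2 * e i = e i * D2 := by
    intro i
    have h1 : ∀ i, c2 * e (![2, 3, 0, 1, 4] i) = e i * c2 := by
      rw [hc2]
      intro i
      fin_cases i
      · exact H.cj (by decide) (by decide) (by decide)
      · exact H.ck (by decide) (by decide) (by decide)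
      · exact H.ci (by decide) (by decide) (by decide)
      · exact H.cl (by decide) (by decide) (by decide)
      · exact H.cm (by decide) (by decide) (by decide) (by decide)
    rw [hD2, neg_mul, smul_mul_assoc, mul_assoc, hv2T, ← mul_assoc, h1, mul_assoc, mul_neg, mul_smul_comm]
  -- `D1 = 1`
  have key : D1 = 1 := by
    have d11 : ∀ u, D1 (D1 u) = u := fun u => DFunLike.congr_fun hD11 u
    have d22 : ∀ u, D2 (D2 u) = u := fun u => DFunLike.congr_fun hD22 u
    have d12 : ∀ u, D1 (D2 u) = D3 u := fun u => DFunLike.congr_fun hD12 u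
    have d21 : ∀ u, D2 (D1 u) = D3 u := fun u => DFunLike.congr_fun hD21 u
    have xd1 : ∀ u, x (D1 u) = D2 (x u) := fun u => DFunLike.congr_fun hxD1 u
    have xd2 : ∀ u, x (D2 u) = D3 (x u) := fun u => DFunLike.congr_fun hxD2 u
    have hxi : Function.Injective x := by
      intro u u' h
      have h1 : ∀ u, x (x (x u)) = u := fun u => DFunLike.congr_fun x3' u
      rw [← h1 u, h, h1]
    have mE : ∀ (D : End K U) (u : U), u ∈ Ei D true ↔ D u = -u := by
      intro D u
      rw [mem_Ei]; simp [sg]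
    have mE' : ∀ (D : End K U) (u : U), u ∈ Ei D false ↔ D u = u := by
      intro D u
      rw [mem_Ei]; simp [sg]
    have a1 : finrank K (Ei D1 true ⊓ Ei D2 false : Submodule K U) ≤
        finrank K (Ei D1 true ⊓ Ei D2 true : Submodule K U) := by
      apply finrank_le_of_map x hxi
      rintro u ⟨h1, h3⟩
      change u ∈ Ei D1 true at h1
      change u ∈ Ei D2 false at h3
      rw [mE] at h1
      rw [mE'] at h3
      have e2 : D2 (x u) = -(x u) := by rw [← xd1, h1, map_neg]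
      have e3 : D3 (x u) = x u := by rw [← xd2, h3]
      refine ⟨(mE _ _).2 ?_, (mE _ _).2 e2⟩
      have e4 : D1 (D2 (x u)) = x u := by rw [d12, e3]
      rw [e2, map_neg] at e4
      exact neg_eq_iff_eq_neg.1 e4
    have a2 : finrank K (Ei D1 true ⊓ Ei D2 true : Submodule K U) ≤
        finrank K (Ei D1 false ⊓ Ei D2 true : Submodule K U) := by
      apply finrank_le_of_map x hxi
      rintro u ⟨h1, h3⟩
      change u ∈ Ei D1 true at h1
      change u ∈ Ei D2 true at h3
      rw [mE] at h1 h3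
      have e2 : D2 (x u) = -(x u) := by rw [← xd1, h1, map_neg]
      have e3 : D3 (x u) = -(x u) := by rw [← xd2, h3, map_neg]
      refine ⟨(mE' _ _).2 ?_, (mE _ _).2 e2⟩
      have e4 : D1 (D2 (x u)) = -(x u) := by rw [d12, e3]
      rw [e2, map_neg, neg_inj] at e4
      exact e4
    have a3 : finrank K (Ei D1 false ⊓ Ei D2 true : Submodule K U) ≤
        finrank K (Ei D1 true ⊓ Ei D2 false : Submodule K U) := by
      apply finrank_le_of_map x hxi
      rintro u ⟨h1, h3⟩
      change u ∈ Ei D1 false at h1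
      change u ∈ Ei D2 true at h3
      rw [mE'] at h1
      rw [mE] at h3
      have e2 : D2 (x u) = x u := by rw [← xd1, h1]
      have e3 : D3 (x u) = -(x u) := by rw [← xd2, h3, map_neg]
      refine ⟨(mE _ _).2 ?_, (mE' _ _).2 e2⟩
      have e4 : D1 (D2 (x u)) = -(x u) := by rw [d12, e3]
      rw [e2] at e4
      exact e4
    have s1 := split h2 (⊤ : Submodule K U) (T := D1) d11 (fun _ _ => trivial)
    rw [top_inf_eq, top_inf_eq, finrank_top] at s1
    have comm : ∀ a, ∀ u ∈ Ei D1 a, D2 u ∈ Ei D1 a := by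
      intro a u hu
      rw [mem_Ei] at hu ⊢
      rw [d12, ← d21, hu, map_smul]
    have s2 := split h2 (Ei D1 true) (T := D2) d22 (comm true)
    have s3 := split h2 (Ei D1 false) (T := D2) d22 (comm false)
    have inv : ∀ a b, ∀ i, ∀ u ∈ Ei D1 a ⊓ Ei D2 b, e i u ∈ Ei D1 a ⊓ Ei D2 b := by
      rintro a b i u ⟨h1, h3⟩
      change u ∈ Ei D1 a at h1
      change u ∈ Ei D2 b at h3
      rw [mem_Ei] at h1 h3
      refine ⟨mem_Ei.2 ?_, mem_Ei.2 ?_⟩
      · have : D1 (e i u) = e i (D1 u) := DFunLike.congr_fun (hD1e i) u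
        rw [this, h1, map_smul]
      · have : D2 (e i u) = e i (D2 u) := DFunLike.congr_fun (hD2e i) u
        rw [this, h3, map_smul]
    by_cases h0 : finrank K (Ei D1 true ⊓ Ei D2 false : Submodule K U) = 0
    · have h00 : finrank K (Ei D1 true) = 0 := by omega
      have h01 : Ei D1 true = ⊥ := Submodule.finrank_eq_zero.1 h00
      apply LinearMap.ext
      intro u
      have h02 : u - D1 u ∈ Ei D1 true := by
        rw [mE, map_sub, d11]; abel
      rw [h01, Submodule.mem_bot, sub_eq_zero] at h02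
      exact h02.symm
    · exfalso
      have pos : ∀ a b, finrank K (Ei D1 a ⊓ Ei D2 b : Submodule K U) ≠ 0 →
          4 ≤ finrank K (Ei D1 a ⊓ Ei D2 b : Submodule K U) := by
        intro a b h
        refine four_le_inv h2 H ?_ (inv a b)
        intro h'
        rw [h', finrank_bot] at h
        exact h rfl
      have p1 := pos true false h0
      have p2 := pos true true (by omega)
      have p3 := pos false true (by omega)
      omega
  -- conclusion
  have h5 : c1 * D1 = 2 * v := by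
    have : c1 * D1 = -((2 : K)⁻¹ • (c1 * c1 * v)) := by
      rw [hD1, mul_neg, mul_smul_comm, mul_assoc]
    rw [this, c11, four, two, neg_mul, smul_neg, neg_neg, smul_mul_assoc, one_mul, smul_mul_assoc, one_mul, smul_smul]
    congr 1
    have : (4 : K) = 2 * 2 := by norm_num
    rw [this, ← mul_assoc, inv_mul_cancel₀ h2, one_mul]
  rw [key, mul_one] at h5
  rw [← hc1, h5, two, smul_mul_assoc, one_mul, smul_smul, inv_mul_cancel₀ h2, one_smul]

/-- the formula for `x` -/
theorem x_quad (h2 : (2 : K) ≠ 0) {e : Fin 5 → End K U} (H : AC e) {x w : End K U}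
    (hw : w = (2 : K)⁻¹ • ((e 4 - e 0) * (e 1 - e 2)))
    (hxT : ∀ i, x * e i = e (![0, 2, 3, 1, 4] i) * x) (x3 : x * x * x = 1) (hxw : x * x = -(w * x * w)) :
    x * x + x + 1 = 0 := by
  have x3' : x * (x * x) = 1 := by rw [← mul_assoc]; exact x3
  have h4 : (2 : K)⁻¹ * (2 : K)⁻¹ * 4 = 1 := by
    have : (4 : K) = 2 * 2 := by norm_num
    rw [this, mul_mul_mul_comm, inv_mul_cancel₀ h2, one_mul]
  have two : (2 : End K U) = (2 : K) • 1 := by
    rw [← Algebra.algebraMap_eq_smul_one]; exact (map_ofNat (algebraMap K (End K U)) 2).symm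
  obtain ⟨A, hA⟩ : ∃ t : End K U, t = e 1 - e 2 := ⟨_, rfl⟩
  obtain ⟨B, hB⟩ : ∃ t : End K U, t = e 2 - e 3 := ⟨_, rfl⟩
  obtain ⟨C, hC⟩ : ∃ t : End K U, t = e 4 - e 0 := ⟨_, rfl⟩
  have hAA : A * A = 2 := by rw [hA]; exact H.dd (by decide)
  have hBB : B * B = 2 := by rw [hB]; exact H.dd (by decide)
  have hCC : C * C = 2 := by rw [hC]; exact H.dd (by decide)
  have hAC' : A * C = -(C * A) := by rw [hA, hC]; exact H.ddis (by decide) (by decide) (by decide) (by decide)
  have hAB : A * B + B * A = -2 := by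
    have e1 : A * B + B * A = (e 1 * e 2 + e 2 * e 1) - (e 1 * e 3 + e 3 * e 1) - (e 2 * e 2 + e 2 * e 2) +
        (e 2 * e 3 + e 3 * e 2) := by
      rw [hA, hB]; noncomm_ring
    rw [e1, H.anti 1 2 (by decide), H.anti 1 3 (by decide), H.anti 2 3 (by decide), H.sq, ← one_add_one_eq_two]
    abel
  have hxw' : x * w = (2 : K)⁻¹ • (C * B) * x := by
    rw [hw, mul_smul_comm, smul_mul_assoc, hC, hB]
    congr 1
    exact AC.conj hxT 4 0 1 2
  have hx : x = (2 : K)⁻¹ • (A * B) := by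
    have e1 : x * x = -(w * ((2 : K)⁻¹ • (C * B)) * x) := by
      rw [hxw, mul_assoc, hxw', ← mul_assoc]
    have e2 : x = -(w * ((2 : K)⁻¹ • (C * B))) := by
      calc x = x * x * (x * x) := by rw [mul_assoc, ← mul_assoc x x x, x3, mul_one]
        _ = -(w * ((2 : K)⁻¹ • (C * B)) * x) * (x * x) := by rw [← e1]
        _ = -(w * ((2 : K)⁻¹ • (C * B)) * (x * (x * x))) := by rw [neg_mul, mul_assoc _ x]
        _ = -(w * ((2 : K)⁻¹ • (C * B))) := by rw [x3', mul_one]
    rw [e2, hw, ← hC, ← hA, smul_mul_smul_comm]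
    have e3 : C * A * (C * B) = -(C * C * (A * B)) := by
      rw [mul_assoc, ← mul_assoc A C B, hAC']
      noncomm_ring
    rw [e3, hCC, two, smul_neg, neg_neg, smul_mul_assoc, one_mul, smul_smul, mul_assoc, inv_mul_cancel₀ h2, mul_one]
  have hxx : x * x = -x - 1 := by
    have e1 : A * B * (A * B) = -(2 * (A * B)) - 4 := by
      have e2 : B * A = -2 - A * B := by rw [← hAB]; abel
      calc A * B * (A * B) = A * (B * A) * B := by simp only [mul_assoc]
        _ = A * (-2 - A * B) * B := by rw [e2]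
        _ = -(2 * (A * B)) - (A * A) * (B * B) := by noncomm_ring
        _ = -(2 * (A * B)) - 4 := by rw [hAA, hBB]; norm_num
    have four : (4 : End K U) = (4 : K) • 1 := by
      rw [← Algebra.algebraMap_eq_smul_one]; exact (map_ofNat (algebraMap K (End K U)) 4).symm
    conv_lhs => rw [hx]
    rw [smul_mul_smul_comm, e1, smul_sub, smul_neg, two, four, smul_smul, h4, one_smul, smul_mul_assoc, one_mul,
      smul_smul, mul_assoc, inv_mul_cancel₀ h2, mul_one, ← hx]
  rw [hxx]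
  abel

end space

end Cfsg.Agent.H4.JT
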